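import Cfsg.Agent.LY.E16

/-! # Common local data, and the case of automizer of order 3 -/

set_option autoImplicit false
set_option linter.unusedSectionVars false

namespace Cfsg.Agent.LY

open Cfsg Cfsg.Agent.Char Cfsg.Agent.GT Cfsg.Agent.BS Cfsg.Agent.LyR Subgroup Function

universe u v

variable {G : Type u} [Group G] [Fintype G] {M : Type v} [Group M] [Fintype M]

theorem phi_mem (φ : T0 →* G) (s : T0) : φ s ∈ C1[φ z0] :=
  mem_cent1.2 (by rw [← map_mul, ← map_mul, cent z0 (by decide)])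

/-- The local data common to both cases. -/
structure Bas (φ : T0 →* G) (η : G) (π : C1[φ z0] →* M) (ι : T0 →* M) : Prop where
  inj : Injective φ
  syl : IsPiHallOf {2} φ.range ⊤
  eta : ∀ s, η * φ s * η⁻¹ = φ ((κ ^ 5) s)
  odd : Odd (Nat.card π.ker)
  res : ∀ s, π ⟨φ s, phi_mem φ s⟩ = ι s
  inj' : Injective ι
  cen : ∀ m : M, m * m = 1 → ∀ n, n * m = m * n
  loc : ∀ m s, s * s = z0 → m * ι s = ι s * m → ∃ r, m = ι r

/-- Representatives of the classes of elements of order 4. -/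
def xr (j : Fin 5) : T0 := kf^[3 * j.val] u0
def j5 (s : T0) : Fin 5 := Fin.ofNat 5 (2 * lg s)

theorem xr_sq : ∀ j, xr j * xr j = z0 := by decide +kernel
theorem xr_cov : ∀ s : T0, s * s ≠ 1 → ∃ m < 3, ∃ c, c * kf^[5 * m] (xr (j5 s)) * c⁻¹ = s := by decide +kernel

variable {φ : T0 →* G} {η : G} {π : C1[φ z0] →* M} {ι : T0 →* M}

theorem t_sq (φ : T0 →* G) : φ z0 * φ z0 = 1 := by rw [← map_mul, show z0 * z0 = 1 by decide, map_one]
theorem t_inv (φ : T0 →* G) : (φ z0)⁻¹ = φ z0 := inv_eq_of_mul_eq_one_right (t_sq φ)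
theorem phi_four (φ : T0 →* G) (s : T0) : φ s ^ 4 = 1 := by
  rw [← map_pow, show s ^ 4 = 1 by rw [← four s]; simp [pow_succ, mul_assoc], map_one]
theorem ct_phi (φ : T0 →* G) (s : T0) : constt {2} (φ s) = φ s := constt_of_piNat (piNat_phi φ s)

theorem phi_real (φ : T0 →* G) (s : T0) : IsConj (φ s) (φ s)⁻¹ := by
  have : ∀ s : T0, ∃ c, c * s * c⁻¹ = s⁻¹ := by decide +kernel
  obtain ⟨c, e⟩ := this s
  exact isConj_iff.2 ⟨φ c, by rw [← map_inv, ← map_inv, ← map_mul, ← map_mul, e]⟩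

theorem phi_int (φ : T0 →* G) (s : T0) : ∃ c : (G → ℂ) → ℤ, ∀ θ ∈ B0 G, θ (φ s) = c θ ∧ θ (φ s)⁻¹ = c θ := by
  have : ∀ θ ∈ B0 G, ∃ n : ℤ, θ (φ s) = n ∧ θ (φ s)⁻¹ = n := fun θ hθ => by
    obtain ⟨n, e⟩ := int_of_four (B0_irr hθ).isCharacter (phi_four φ s) (phi_real φ s)
    exact ⟨n, e, ((B0_irr hθ).isClassFunction.eq_of_isConj (phi_real φ s)).symm.trans e⟩
  choose! c hc using this
  exact ⟨c, hc⟩

namespace Bas

theorem ne (H : Bas φ η π ι) {s : T0} (h : s ≠ 1) : φ s ≠ 1 := fun e => h (H.inj (e.trans φ.map_one.symm))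

theorem cjz (H : Bas φ η π ι) {s : T0} (h : s * s = 1) (h1 : s ≠ 1) : IsConj (φ z0) (φ s) := by
  have : ∀ s : T0, s * s = 1 → s ≠ 1 → ∃ m < 3, kf^[5 * m] z0 = s := by decide +kernel
  obtain ⟨m, -, rfl⟩ := this s h h1
  exact isConj_iff.2 ⟨η ^ m, conj_it H.eta m _⟩

theorem cjx (H : Bas φ η π ι) {s : T0} (h : s * s ≠ 1) : IsConj (φ (xr (j5 s))) (φ s) := by
  obtain ⟨m, -, c, e⟩ := xr_cov s h
  refine isConj_iff.2 ⟨φ c * η ^ m, ?_⟩
  conv_rhs => rw [← e, map_mul, map_mul, map_inv, ← conj_it H.eta]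
  group

theorem invol (H : Bas φ η π ι) {a : G} (h : a * a = 1) (h1 : a ≠ 1) : IsConj (φ z0) a := by
  obtain ⟨s, hs⟩ := exists_conj_syl H.syl (u := a) (by
    rw [orderOf_eq_two_of h h1]; exact piNat_single_self Nat.prime_two)
  obtain ⟨c, rfl⟩ := isConj_iff.1 hs
  refine (H.cjz (H.inj ?_) ?_).trans hs
  · rw [map_mul, map_one]; exact (MulAut.conj c).injective (by simpa using h)
  · rintro rfl; simp at h1

theorem nil (H : Bas φ η π ι) {s : T0} (h : s * s = z0) : Nil (φ s) 16 := by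
  classical
  have le : C1[φ s] ≤ C1[φ z0] := fun g hg => mem_cent1.2 (by
    rw [← h, map_mul]; exact (show Commute g (φ s) from mem_cent1.1 hg).mul_right (mem_cent1.1 hg))
  have r : (π.comp (inclusion le)).range = C1[s].map ι := by
    ext m
    constructor
    · rintro ⟨g, rfl⟩
      have c : π (inclusion le g) * ι s = ι s * π (inclusion le g) := by
        rw [← H.res, ← map_mul, ← map_mul]; exact congrArg π (Subtype.ext (mem_cent1.1 g.2))
      obtain ⟨r, e⟩ := H.loc _ s h c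
      exact ⟨r, mem_cent1.2 (H.inj' (by rw [map_mul, map_mul, ← e, c])), e.symm⟩
    · rintro ⟨r, hr, rfl⟩
      exact ⟨⟨φ r, mem_cent1.2 (by rw [← map_mul, ← map_mul, mem_cent1.1 hr])⟩, H.res r⟩
  have c : Nat.card (π.comp (inclusion le)).range = 16 := by
    have : ∀ s : T0, s * s = z0 → Fintype.card {r // r * s = s * r} = 16 := by decide +kernel
    rw [r, card_map_of_injective H.inj', ← this s h, ← Nat.card_eq_fintype_card]
    exact Nat.card_congr (Equiv.subtypeEquivRight fun _ => mem_cent1)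
  have p : IsPGroup 2 (π.comp (inclusion le)).range := IsPGroup.of_card (n := 4) c
  rw [← c]
  refine Md.nil (π := (π.comp (inclusion le)).rangeRestrict)
    ⟨piNat_phi φ s, MonoidHom.rangeRestrict_surjective _, ?_, one_of_two p⟩ p
  rw [MonoidHom.ker_rangeRestrict, ← MonoidHom.comap_ker]
  exact H.odd.of_dvd_nat (card_comap_dvd_of_injective _ _ (inclusion_injective le))

theorem noinv (H : Bas φ η π ι) {s : T0} (h : s * s = z0) {a : G} (ha : a * a = 1)
    (e : a * φ s = (φ s)⁻¹ * a) : False := by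
  have m : a ∈ C1[φ z0] := mem_cent1.2 (by
    nth_rewrite 2 [← t_inv]
    rw [← h, map_mul, mul_inv_rev, ← mul_assoc, e, mul_assoc, e, mul_assoc])
  have a1 := H.cen (π ⟨a, m⟩) (by rw [← map_mul, ← π.map_one]; exact congrArg π (Subtype.ext ha)) (ι s)
  have a2 : π ⟨a, m⟩ * ι s = (ι s)⁻¹ * π ⟨a, m⟩ := by
    rw [← H.res, ← map_inv, ← map_mul, ← map_mul]; exact congrArg π (Subtype.ext e)
  rw [a2, mul_left_inj, eq_inv_iff_mul_eq_one, ← map_mul, h, ← ι.map_one] at a1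
  exact absurd (H.inj' a1) (by decide)

theorem rec4 (H : Bas φ η π ι) {s : T0} (h : s * s = z0) :
    ∑ θ ∈ B0 G, θ (φ s)⁻¹ * (θ (φ z0) * θ (φ z0)) / θ 1 = 0 := by
  rw [recip, Finset.sum_eq_zero fun g _ => sum_B0_eq_zero fun hc => ?_, mul_zero]
  obtain ⟨c, hc⟩ := isConj_iff.1 hc
  have e : φ z0 * (g * φ z0 * g⁻¹ * φ z0) * (φ z0)⁻¹ = (g * φ z0 * g⁻¹ * φ z0)⁻¹ := by
    simp only [mul_inv_rev, t_inv, inv_inv, mul_assoc, t_sq, mul_one]
  have e1 := congrArg (constt {2}) e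
  rw [constt_conj, constt_inv, ← hc, ct_phi] at e1
  refine H.noinv h (a := c⁻¹ * φ z0 * c) (by simpa using conj_invol (t_sq φ) c⁻¹) ?_
  calc _ = c⁻¹ * (φ z0 * (c * φ s * c⁻¹) * (φ z0)⁻¹) * φ z0 * c := by group
    _ = _ := by rw [e1]; group

theorem nc (H : Bas φ η π ι) {s : T0} (h : s * s = z0) : ¬ IsConj (φ z0) (φ s) := fun e => by
  obtain ⟨c, e⟩ := isConj_iff.1 e
  have := conj_invol (t_sq φ) c
  rw [e, ← map_mul, h] at this
  exact H.ne (by decide) this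

theorem c44 (H : Bas φ η π ι) {χ : G → ℂ} (hχ : IsCharacter G χ) (j : Fin 5) {f a c : ℤ} (hf : χ 1 = f)
    (ha : χ (φ z0) = a) (hc : χ (φ (xr j)) = c) : 4 ∣ a - c := by
  have : ∀ (j : Fin 5) (i k : Fin 4), let r := xr j ^ i.val * kf^[5] (xr j) ^ k.val
      if i = 0 ∧ k = 0 then r = 1 else if i.val % 2 = 0 ∧ k.val % 2 = 0 then r * r = 1 ∧ r ≠ 1 else
        r * r ≠ 1 ∧ j5 r = j := by decide +kernel
  have cm : ∀ j, xr j * kf^[5] (xr j) = kf^[5] (xr j) * xr j := by decide +kernel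
  refine z44 hχ (phi_four φ (xr j)) (phi_four φ (kf^[5] (xr j))) (Commute.map (cm j) φ)
    (f := f) fun i k => ?_
  have := this j i k
  rw [← map_pow, ← map_pow, ← map_mul]
  split_ifs at this ⊢
  · rw [this, map_one, hf]
  · rw [← hχ.isClassFunction.eq_of_isConj (H.cjz this.1 this.2), ha]
  · rw [← hχ.isClassFunction.eq_of_isConj (H.cjx this.1), this.2, hc]

def k7 (s : T0) : Fin 7 := if s = 1 then 0 else if s * s = 1 then 1 else Fin.ofNat 7 ((j5 s).val + 2)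

theorem c64 (H : Bas φ η π ι) {χ : G → ℂ} (hχ : IsCharacter G χ) {f a : ℤ} {c : Fin 5 → ℤ} (hf : χ 1 = f)
    (ha : χ (φ z0) = a) (hc : ∀ j, χ (φ (xr j)) = c j) : ∃ m : ℕ, f + 3 * a + 12 * ∑ j, c j = 64 * m := by
  obtain ⟨m, e⟩ := tsum hχ φ (eps 0 (by decide +kernel)) k7 ![f, a, c 0, c 1, c 2, c 3, c 4] (fun r => by
    unfold k7
    split_ifs with a b
    · rw [a, map_one, hf]; rfl
    · rw [← hχ.isClassFunction.eq_of_isConj (H.cjz b a), ha]; rfl
    · rw [← hχ.isClassFunction.eq_of_isConj (H.cjx b), hc]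
      generalize j5 r = j
      fin_cases j <;> rfl) ![1, 3, 12, 12, 12, 12, 12] (by decide +kernel)
  simp [Fin.sum_univ_seven] at e
  exact ⟨m, by rw [Fin.sum_univ_five]; omega⟩

end Bas

theorem exists_deg : ∃ f : (G → ℂ) → ℤ, ∀ θ ∈ B0 G, θ 1 = f θ := by
  have : ∀ θ ∈ B0 G, ∃ n : ℤ, θ 1 = n := fun θ hθ => (B0_irr hθ).virt.exists_int_one
  choose! f hf using this
  exact ⟨f, hf⟩

theorem caseB [IsSimpleGroup G] {π : C1[φ z0] →* T0} (H : Bas φ η π (MonoidHom.id T0)) : False := by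
  classical
  have p : IsPGroup 2 T0 := IsPGroup.of_card (n := 6) card_T0
  have nil := Md.nil (π := π) ⟨piNat_phi φ z0, fun s => ⟨_, H.res s⟩, H.odd, one_of_two p⟩ p
  obtain ⟨a, ha⟩ := phi_int φ z0
  choose c hc using fun j => phi_int φ (xr j)
  obtain ⟨f, hf⟩ := exists_deg (G := G)
  have cc : ∀ j k, 1 + ∑ θ ∈ B1 G, c j θ * c k θ = if j = k then 16 else 0 := fun j k => by
    refine zsum (F := fun θ => θ (φ (xr j))⁻¹ * θ (φ (xr k))) (fun θ hθ => by simp [hc _ θ hθ]) ?_ (by simp)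
    split_ifs with e
    · exact e ▸ (H.nil (xr_sq j)).val
    · refine (sum_B0_eq_zero fun h => e ?_).trans Int.cast_zero.symm
      rw [ct_phi, ct_phi] at h
      obtain ⟨g, h⟩ := isConj_iff.1 h
      have m : g ∈ C1[φ z0] := mem_cent1.2 (by
        rw [← mul_inv_eq_iff_eq_mul]
        nth_rewrite 1 [← xr_sq j]
        rw [← xr_sq k, map_mul, map_mul, ← h]; group)
      have : ∀ j k r, r * xr j * r⁻¹ = xr k → j = k := by decide +kernel
      refine this j k (π ⟨g, m⟩) ?_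
      have := congrArg π (show (⟨g, m⟩ * ⟨_, phi_mem φ (xr j)⟩ * (⟨g, m⟩ : C1[φ z0])⁻¹ : C1[φ z0]) =
        ⟨_, phi_mem φ (xr k)⟩ from Subtype.ext h)
      rwa [map_mul, map_mul, map_inv, H.res, H.res] at this
  refine numB (B1 G) a f c (fun θ => ∑ k, c k θ) (fun _ => rfl) (fun θ hθ k => ?_) (fun θ hθ => ?_) ?_ (fun k => ?_)
    ?_ ?_ ?_
  · have hθ := (mem_B1.1 hθ).2
    exact H.c44 (B0_irr hθ).isCharacter k (hf θ hθ) (ha θ hθ).1 (hc k θ hθ).1
  · obtain ⟨n, hθ⟩ := mem_B1.1 hθ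
    obtain ⟨m, e⟩ := H.c64 (B0_irr hθ).isCharacter (hf θ hθ) (ha θ hθ).1 fun k => (hc k θ hθ).1
    exact ⟨by omega, by omega, lt_degree (B0_irr hθ) n (H.ne (by decide)) (ha θ hθ).1 (hf θ hθ)⟩
  · have := zsum (φ := fun θ => a θ * a θ) (m := 64) (k := 1) (fun θ hθ => by simp [ha θ hθ])
      (nil.val.trans (by rw [card_T0]; rfl)) (by simp)
    omega
  · have := cc k k; simp at this; omega
  · simp only [Finset.sum_mul_sum]
    rw [Finset.sum_comm]
    simp only [Finset.sum_comm (s := B1 G), eq_sub_iff_add_eq'.2 (cc _ _)]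
    decide
  · have : ∀ k, 1 + ∑ θ ∈ B1 G, a θ * c k θ = 0 := fun k =>
      zsum (F := fun θ => θ (φ z0)⁻¹ * θ (φ (xr k))) (fun θ hθ => by simp [hc _ θ hθ, ha θ hθ])
        ((sum_B0_eq_zero (by rw [ct_phi, ct_phi]; exact H.nc (xr_sq k))).trans Int.cast_zero.symm) (by simp)
    simp only [Finset.mul_sum]
    rw [Finset.sum_comm]
    simp [eq_neg_of_add_eq_zero_right (this _)]
  · have : ∀ k, 1 + ∑ θ ∈ B1 G, (a θ * a θ * c k θ : ℚ) / f θ = 0 := fun k =>
      qsum (fun θ hθ => by simp [hc _ θ hθ, ha θ hθ, hf θ hθ]; ring)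
        ((H.rec4 (xr_sq k)).trans Rat.cast_zero.symm) (by simp)
    simp only [Int.cast_sum, Finset.mul_sum, Finset.sum_div]
    rw [Finset.sum_comm]
    simp [eq_neg_of_add_eq_zero_right (this _)]

end Cfsg.Agent.LY
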