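import Cfsg.Agent.LY.Col

/-! # Generalized decomposition numbers for an element of order 5 -/

set_option autoImplicit false
set_option linter.unusedSectionVars false

namespace Cfsg.Agent.LY

open Cfsg Cfsg.Agent.Char Cfsg.Agent.GT Cfsg.Agent.BS Finset
open scoped ComplexConjugate

universe u

noncomputable def ζ5 : ℂ := Complex.exp (2 * Real.pi * Complex.I / (5 : ℕ))

theorem ζ5_prim : IsPrimitiveRoot ζ5 5 := Complex.isPrimitiveRoot_exp 5 (by decide)
theorem ζ5_pow : ζ5 ^ 5 = 1 := ζ5_prim.pow_eq_one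
theorem ζ5_sum : 1 + ζ5 + ζ5 ^ 2 + ζ5 ^ 3 + ζ5 ^ 4 = 0 := by
  simpa [Finset.sum_range_succ] using ζ5_prim.geom_sum_eq_zero (by decide)

noncomputable def e5 (k : Fin 5) : ℂ := ζ5 ^ k.val

theorem e5_add (j k : Fin 5) : e5 (j + k) = e5 j * e5 k := by
  rw [e5, Fin.val_add, ← pow_eq_pow_mod _ ζ5_pow, pow_add]; rfl

theorem e5_orth (r : Fin 5) : ∑ j, e5 (j * r) = if r = 0 then 5 else 0 := by
  fin_cases r <;> simp [Fin.sum_univ_five, e5] <;> linear_combination ζ5_sum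

theorem dft {p q : Fin 5 → Fin 5} (h : ∀ j l k, p (j * l) + q (j * k) = j * (p l + q k))
    (h' : ∀ l k, p l + q k = 0 ↔ l = k) (b : Fin 5 → ℂ) (k : Fin 5) :
    ∑ j, (∑ l, b l * e5 (p (j * l))) * e5 (q (j * k)) = 5 * b k := by
  simp only [sum_mul, mul_assoc, ← e5_add, h]
  rw [sum_comm]
  simp [← mul_sum, e5_orth, h', mul_comm]

noncomputable def ev (d : Fin 5 → ℤ) (k : Fin 5) : ℂ := ∑ j, d j * e5 (k * j)

theorem ev_inj {d d' : Fin 5 → ℤ} (h : ∀ k, ev d k = ev d' k) (j : Fin 5) : d j = d' j := by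
  have a := dft (p := id) (q := Neg.neg) (by decide) (by decide) (fun l => d l) j
  have b := dft (p := id) (q := Neg.neg) (by decide) (by decide) (fun l => d' l) j
  simp only [ev] at h
  simp only [id] at b
  simp only [id, h, b] at a
  exact_mod_cast (mul_left_cancel₀ (show (5 : ℂ) ≠ 0 by norm_num) a).symm

theorem ev_map {σ : ℂ ≃+* ℂ} (hσ : σ ζ5 = ζ5 ^ 2) (d : Fin 5 → ℤ) (k : Fin 5) :
    σ (ev d k) = ev (fun j => d (3 * j)) k := by
  rw [ev, map_sum]
  refine Fintype.sum_bijective (fun j : Fin 5 => 2 * j) (by decide) _ _ fun j => ?_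
  beta_reduce
  rw [show 3 * (2 * j) = j by revert j; decide, show k * (2 * j) = k * j + k * j by revert j k; decide, e5_add,
    map_mul, map_intCast, e5, map_pow, hσ, ← pow_mul, two_mul, pow_add]

theorem sum_per (F : ℕ → ℂ) (h : ∀ k, F (k + 5) = F k) (m : ℕ) :
    ∑ k ∈ range (5 * m), F k = m * ∑ k ∈ range 5, F k := by
  induction m with
  | zero => simp
  | succ m ih => rw [Nat.mul_succ, add_comm, sum_range_add]; simp only [add_comm 5, h, ih]; push_cast; ring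

variable {G : Type u} [Group G] [Fintype G]

theorem lin2 {χ : G → ℂ} (hχ : IsCharacter G χ) {n m : ℕ} [NeZero n] [NeZero m] {x y : G} (hx : x ^ n = 1)
    (hy : y ^ m = 1) (hc : Commute x y) {a b : ℂ} (ha : a ^ n = 1) (hb : b ^ m = 1) :
    ∃ k : ℕ, ∑ i : Fin n, ∑ j : Fin m, χ (x ^ i.val * y ^ j.val) * conj (a ^ i.val * b ^ j.val) = n * m * k := by
  obtain ⟨k, e⟩ := lin_nat ((cyc x hx).noncommCoprod (cyc y hy) fun i j => hc.pow_pow _ _)
    ((cyc a ha).coprod (cyc b hb)) hχ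
  simp only [Fintype.sum_prod_type, ← Multiplicative.ofAdd.sum_comp] at e
  exact ⟨k, e.trans (by simp)⟩

theorem fourier {χ : G → ℂ} (hχ : IsCharacter G χ) {t h : G} (ht : t * t = 1) (hc : Commute t h)
    (h5 : 5 ∣ orderOf h) (per : ∀ k, χ (t * h ^ (k + 5)) = χ (t * h ^ k)) :
    ∃ d : Fin 5 → ℤ, ∀ k : Fin 5, χ (t * h ^ k.val) = ev d k := by
  obtain ⟨m, hm⟩ := h5
  have m0 : m ≠ 0 := by rintro rfl; exact (orderOf_pos h).ne' hm
  have : NeZero (5 * m) := ⟨by omega⟩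
  have key : ∀ j : Fin 5, ∃ d : ℤ, ∑ l : Fin 5, χ (t * h ^ l.val) * e5 (-(j * l)) = 5 * d := fun j => by
    have z : e5 j ^ 5 = 1 := by rw [e5, ← pow_mul, mul_comm, pow_mul, ζ5_pow, one_pow]
    have z' : e5 j ^ (5 * m) = 1 := by rw [pow_mul, z, one_pow]
    have t2 : t ^ 2 = 1 := by rw [pow_two, ht]
    obtain ⟨n1, a1⟩ := lin2 hχ t2 (hm ▸ pow_orderOf_eq_one h) hc (one_pow 2) z'
    obtain ⟨n2, a2⟩ := lin2 hχ t2 (hm ▸ pow_orderOf_eq_one h) hc (neg_one_sq (R := ℂ)) z'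
    simp only [Fin.sum_univ_two, Fin.val_zero, Fin.val_one, pow_zero, pow_one, one_mul, neg_mul, map_neg, mul_neg,
      sum_neg_distrib] at a1 a2
    have a3 := sum_per (fun k => χ (t * h ^ k) * conj (e5 j ^ k)) (fun k => by rw [per, pow_add, z, mul_one]) m
    rw [← Fin.sum_univ_eq_sum_range (fun k => χ (t * h ^ k) * conj (e5 j ^ k)),
      ← Fin.sum_univ_eq_sum_range (fun k => χ (t * h ^ k) * conj (e5 j ^ k))] at a3
    refine ⟨n1 - n2, mul_left_cancel₀ (Nat.cast_ne_zero.2 m0) ?_⟩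
    have a4 : ∀ l : Fin 5, e5 (-(j * l)) = conj (e5 j ^ l.val) := fun l => by
      have b : e5 j ^ l.val = e5 (j * l) := by rw [e5, e5, Fin.val_mul, ← pow_eq_pow_mod _ ζ5_pow, pow_mul]
      have c : ‖e5 (j * l)‖ = 1 := by rw [e5, norm_pow, ζ5_prim.norm'_eq_one (by decide), one_pow]
      rw [b, ← Complex.inv_eq_conj c]
      exact eq_inv_of_mul_eq_one_left (by rw [← e5_add, neg_add_cancel]; rfl)
    simp only [a4]
    push_cast at a1 a2 ⊢
    linear_combination (a1 - a2) / 2 - a3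
  choose d hd using key
  refine ⟨d, fun k => mul_left_cancel₀ (show (5 : ℂ) ≠ 0 by norm_num) ?_⟩
  rw [← dft (p := Neg.neg) (q := id) (by decide) (by decide) (fun l => χ (t * h ^ l.val)) k, ev, mul_sum]
  exact sum_congr rfl fun j _ => by rw [hd, mul_assoc, show k * j = id (j * k) by revert j k; decide]

end Cfsg.Agent.LY
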