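import Cfsg.Agent.LyR.T0

/-! # The centralizer of an involution in `U₃(4)` -/

set_option autoImplicit false

namespace Cfsg.Agent.LY

open Cfsg.Agent.LyR

theorem kf_it (n : ℕ) (x : T0) : kf^[n % 15] x = kf^[n] x := by
  have : κ ^ 15 = 1 := by ext x : 1; rw [κ_pow]; exact (kf_15 x).1
  rw [← κ_pow, ← κ_pow, ← pow_eq_pow_mod n this]

theorem a5_inv : ∀ (k : Fin 5) (x : T0), kf^[15 - 3 * k.val] (kf^[3 * k.val] x) = x ∧
    kf^[3 * k.val] (kf^[15 - 3 * k.val] x) = x := by decide +kernel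

theorem a5_mul : ∀ (j k : Fin 5) (x : T0), kf^[3 * (j + k).val] x = kf^[3 * j.val] (kf^[3 * k.val] x) := by
  decide +kernel

/-- The action of the element of order 5. -/
def act5 : Multiplicative (Fin 5) →* MulAut T0 :=
  MonoidHom.mk' (fun k => ⟨⟨kf^[3 * k.toAdd.val], kf^[15 - 3 * k.toAdd.val], fun x => (a5_inv _ x).1,
    fun x => (a5_inv _ x).2⟩, fun x y => by simp only [← κ_pow, map_mul]⟩)
    fun j k => MulEquiv.ext fun x => a5_mul j.toAdd k.toAdd x

theorem act5_apply (k : Multiplicative (Fin 5)) (x : T0) : act5 k x = kf^[3 * k.toAdd.val] x := rfl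

/-- The centralizer of an involution in `U₃(4)`. -/
abbrev M5 : Type := T0 ⋊[act5] Multiplicative (Fin 5)

/-- The generator of the complement. -/
def h5 : M5 := SemidirectProduct.inr (Multiplicative.ofAdd 1)

theorem card_M5 : Nat.card M5 = 320 := by rw [SemidirectProduct.card, card_T0]; simp

instance finM5 : Finite M5 := Nat.finite_of_card_ne_zero (by rw [card_M5]; decide)

instance decM5 (p : M5 → Prop) [DecidablePred p] : Decidable (∀ x, p x) :=
  decidable_of_iff (∀ k s, p ⟨s, k⟩) ⟨fun h x => h x.2 x.1, fun h _ _ => h _⟩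

end Cfsg.Agent.LY
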