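import Cfsg.Agent.LY.Col
import Cfsg.Agent.LY.M5

/-! # Facts on the centralizer of an involution in `U₃(4)` -/

set_option autoImplicit false

namespace Cfsg.Agent.LY

open Cfsg Cfsg.Agent.Char Cfsg.Agent.GT Cfsg.Agent.BS Cfsg.Agent.LyR Subgroup SemidirectProduct

instance fM5 : Fintype M5 := Fintype.ofEquiv _ SemidirectProduct.equivProd.symm

def hp (k : Fin 5) : M5 := inr (Multiplicative.ofAdd k)

theorem h5_pow : ∀ k : Fin 5, h5 ^ k.val = hp k := by decide +kernel
theorem h5_five : h5 ^ 5 = 1 := by decide +kernel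
theorem cen5 : ∀ m : M5, m * m = 1 → ∀ n, n * m = m * n := by decide +kernel
theorem inv5 : ∀ m : M5, m * m = 1 → m = inl m.left ∧ m.left * m.left = 1 := by decide +kernel
theorem loc5 : ∀ s : T0, s * s = z0 → ∀ m : M5, m * inl s = inl s * m → m = inl m.left := by decide +kernel
theorem cnt5 : ∀ j k : Fin 5, Fintype.card {m : M5 // m * hp k * m⁻¹ = hp j} =
    if j = k then if k = 0 then 320 else 20 else 0 := by decide +kernel
theorem cov5 : ∀ m : M5, m ^ 5 = 1 → ∃ s, inl s * hp m.right.toAdd * (inl s)⁻¹ = m := by decide +kernel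
theorem num5 : ∀ k : Fin 5, Fintype.card {m : M5 // m ^ 5 = 1 ∧ m.right.toAdd = k} = if k = 0 then 1 else 16 := by
  decide +kernel

theorem odd5 (m : M5) : Odd (orderOf m) ↔ m ^ 5 = 1 := by
  rw [← orderOf_dvd_iff_pow_eq_one]
  refine ⟨fun h => ?_, fun h => Odd.of_dvd_nat (by decide) h⟩
  have := orderOf_dvd_natCard m
  rw [card_M5, show 320 = 2 ^ 6 * 5 from rfl] at this
  exact (Nat.Coprime.pow_right 6 (Nat.coprime_two_right.2 h)).dvd_of_dvd_mul_left this

theorem one5 (ψ : M5 → ℂ) (h : IsIrrCharacter M5 ψ) : ψ ∈ B0 M5 := by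
  classical
  obtain ⟨n, hn⟩ := omega_int h
  obtain ⟨d, d0, hd⟩ := h.exists_degree
  refine mem_B0.2 ⟨h, n, Int.not_even_iff_odd.1 fun ⟨k, e⟩ => ?_, hn⟩
  have a : ∑ g, oddInd g * ψ g = ∑ k : Fin 5, Nat.card {m : M5 // m ^ 5 = 1 ∧ m.right.toAdd = k} * ψ (hp k) := by
    simp only [natCard_subtype_eq_sum_ite, Finset.sum_mul]
    rw [Finset.sum_comm]
    refine Finset.sum_congr rfl fun g _ => ?_
    by_cases e : g ^ 5 = 1
    · obtain ⟨s, hs⟩ := cov5 g e
      rw [oddInd, if_pos ((odd5 g).2 e)]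
      have : ψ (hp g.right.toAdd) = ψ g := by rw [← h.isClassFunction _ (inl s), hs]
      simp [e, this]
    · rw [oddInd, if_neg (mt (odd5 g).1 e)]
      simp [e]
  simp only [Nat.card_eq_fintype_card, num5, Fin.sum_univ_five] at a
  have b : ((d * (n - 1) : ℤ) : ℂ) = (16 : ℤ) * (ψ (hp 1) + ψ (hp 2) + ψ (hp 3) + ψ (hp 4)) := by
    rw [omega, div_eq_iff h.apply_one_ne_zero, a, show hp 0 = 1 from rfl, hd] at hn
    simp at hn ⊢
    linear_combination -hn
  have i := h.isCharacter.isIntegral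
  have c := int_dvd_of_isIntegral ((((i _).add (i _)).add (i _)).add (i _)) (by decide) b
  let D : Subgroup M5 := ⟨⟨⟨{m | m * m = 1}, fun {a b} ha hb => by
    rw [Set.mem_ofPred_eq, mul_assoc, ← mul_assoc b, cen5 a ha b, mul_assoc, ← mul_assoc a, ha, one_mul]; exact hb⟩,
    mul_one 1⟩, fun {a} ha => by rw [Set.mem_ofPred_eq, ← mul_inv_rev, show a * a = 1 from ha, inv_one]⟩
  have l := h.degree_sq_mul_card_le D fun d hd c => by rw [← cen5 d hd c]; simp
  rw [card_M5, hd, show Nat.card D = 4 from (Nat.card_eq_fintype_card (α := {m : M5 // m * m = 1})).trans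
    (by decide +kernel)] at l
  have : d ^ 2 * 4 ≤ 320 := by exact_mod_cast (by simpa using l : (d : ℝ) ^ 2 * (4 : ℕ) ≤ (320 : ℕ))
  have : d < 9 := by nlinarith
  subst e
  interval_cases d <;> omega

end Cfsg.Agent.LY
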