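import Cfsg.Agent.LY.NumB
import Cfsg.Agent.LY.NumT1
import Cfsg.Agent.LY.NumT2

set_option autoImplicit false
set_option maxRecDepth 100000

namespace Cfsg.Agent.LY

open Finset

theorem okA (l : List (Ty × ℤ)) (h : l.map Prod.fst ∈ CA) : Ok KA l := by
  obtain ⟨i, hi, h⟩ : ∃ i < 20, l.map Prod.fst = CA.getD i [] := by
    obtain ⟨i, hi, e⟩ := List.getElem_of_mem h
    exact ⟨i, hi, by rw [← e, List.getD_eq_getElem _ _ hi]⟩
  interval_cases i
  · exact ok_of _ ck0 l h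
  · exact ok_of _ ck1 l h
  · exact ok_of _ ck2 l h
  · exact ok_of _ ck3 l h
  · exact ok_of _ ck4 l h
  · exact ok_of _ ck5 l h
  · exact ok_of _ ck6 l h
  · exact ok_of _ ck7 l h
  · exact ok_of _ ck8 l h
  · exact ok_of _ ck9 l h
  · exact ok_of _ ck10 l h
  · exact ok_of _ ck11 l h
  · exact ok_of _ ck12 l h
  · exact ok_of _ ck13 l h
  · exact ok_of _ ck14 l h
  · exact ok_of _ ck15 l h
  · exact ok_of _ ck16 l h
  · exact ok_of _ ck17 l h
  · exact ok_of _ ck18 l h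
  · exact ok_of _ ck19 l h

def wtA (u v R : ℤ) : ℤ :=
  if 0 < u ∧ 0 ≤ v then 4 else if u = 0 ∧ v = 0 then (if 0 < R then 2 else if R = 0 then 1 else 0) else 0
def loA (a c : ℤ) : ℤ := lo (4 * c - 3 * a) (max (-3 * a - 60 * c) (max (a + 1) 1))
def mkA (w a B c n R : ℤ) : Ty := ⟨w, a, B, c, n, R, 4 * c - 3 * a, loA a c, loA (-a) (-c)⟩

theorem wtA_sum (u v R : ℤ) : wtA u v R + wtA (-v) u (-R) + wtA (-u) (-v) R + wtA v (-u) (-R) = 4 := by
  unfold wtA; split_ifs <;> omega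

theorem wtA_cases (u v R : ℤ) : wtA u v R = 0 ∨ 1 ≤ wtA u v R := by unfold wtA; split_ifs <;> omega

theorem memA : ∀ a ∈ rg 17, ∀ B ∈ rg 8, 5 ∣ a + B → ∀ c ∈ rg 3, 4 ∣ a - c → ¬ (a = 0 ∧ B = 0 ∧ c = 0) →
    ∀ u ∈ rg 4, 0 ≤ u → ∀ v ∈ rg 4, 0 ≤ v → ∀ R ∈ rg 4, wtA u v R ≠ 0 → 4 ∣ a - (a + B) / 5 + R + 2 * u →
    4 ∣ a - (a + B) / 5 - R + 2 * v → wtA u v R * (a * a) ≤ 319 → wtA u v R * (B * B) ≤ 64 →
    wtA u v R * (c * c) ≤ 15 → wtA u v R * (u * u + v * v) ≤ 16 → wtA u v R * (R * R) ≤ 16 →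
    mkA (wtA u v R) (sg c a B * a) (sg c a B * B) (sg c a B * c) (u * u + v * v) (R * R) ∈ tsA := by decide +kernel

theorem numA {ι : Type*} (s : Finset ι) (a B c f u v R : ι → ℤ) (π : ι → ι) (hπ : ∀ i ∈ s, π i ∈ s)
    (hi : Set.InjOn π s) (hs : ∀ i ∈ s, a (π i) = a i ∧ B (π i) = B i ∧ c (π i) = c i ∧ f (π i) = f i ∧
      u (π i) = -v i ∧ v (π i) = u i ∧ R (π i) = -R i)
    (hc : ∀ i ∈ s, 5 ∣ a i + B i ∧ 4 ∣ a i - c i ∧ ¬ (a i = 0 ∧ B i = 0 ∧ c i = 0) ∧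
      4 ∣ a i - (a i + B i) / 5 + R i + 2 * u i ∧ 4 ∣ a i - (a i + B i) / 5 - R i + 2 * v i)
    (hf : ∀ i ∈ s, 64 ∣ f i + 3 * a i + 60 * c i ∧ 0 ≤ f i + 3 * a i + 60 * c i ∧ a i < f i ∧ 0 < f i)
    (s1 : ∑ i ∈ s, a i * a i = 319) (s2 : ∑ i ∈ s, B i * B i = 64) (s3 : ∑ i ∈ s, c i * c i = 15)
    (s4 : ∑ i ∈ s, a i * B i = -4) (s5 : ∑ i ∈ s, a i * c i = -1) (s6 : ∑ i ∈ s, B i * c i = -4)
    (s7 : ∑ i ∈ s, (u i * u i + v i * v i) = 16) (s8 : ∑ i ∈ s, R i * R i = 16)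
    (e1 : 1 + ∑ i ∈ s, a i * f i = 0) (e2 : 4 + ∑ i ∈ s, B i * f i = 0) (e3 : 1 + ∑ i ∈ s, c i * f i = 0)
    (e4 : (1 : ℚ) + ∑ i ∈ s, (a i * a i * c i : ℚ) / f i = 0)
    (e5 : (4 : ℚ) + ∑ i ∈ s, (a i * a i * B i : ℚ) / f i = 0) :
    (∃ i ∈ s, a i = -4 ∧ f i = 12) ∧ (1 : ℚ) + ∑ i ∈ s, (a i * a i * a i : ℚ) / f i = 128 / 39 := by
  classical
  set w : ι → ℤ := fun i => wtA (u i) (v i) (R i) with hw
  set s' := s.filter fun i => w i ≠ 0
  set g : ι → ℤ := fun i => sg (c i) (a i) (B i)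
  set r : ι → Ty × ℤ := fun i => (mkA (w i) (g i * a i) (g i * B i) (g i * c i) (u i * u i + v i * v i) (R i * R i),
    g i * f i)
  have sh : ∀ φ : ι → ℚ, ∑ i ∈ s, φ (π i) = ∑ i ∈ s, φ i := fun φ =>
    sum_nbij π hπ hi (Finset.surjOn_of_injOn_of_card_le π hπ hi le_rfl) fun _ _ => rfl
  have fl : ∀ φ ψ : ι → ℚ, (∀ i ∈ s, φ (π i) = φ i) → (∀ i, ψ i = w i * φ i) → ∑ i ∈ s', ψ i = ∑ i ∈ s, φ i := by
    intro φ ψ h k
    have a0 : ∑ i ∈ s', ψ i = ∑ i ∈ s, w i * φ i := by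
      rw [funext k]; exact sum_filter_of_ne fun i _ n m => n (by simp [m])
    have a1 : ∑ i ∈ s, w (π i) * φ i = ∑ i ∈ s, w i * φ i := by
      rw [← sh fun i => w i * φ i]; exact sum_congr rfl fun i hi => by rw [h i hi]
    have a2 : ∑ i ∈ s, w (π (π i)) * φ i = ∑ i ∈ s, w (π i) * φ i := by
      rw [← sh fun i => w (π i) * φ i]; exact sum_congr rfl fun i hi => by rw [h i hi]
    have a3 : ∑ i ∈ s, w (π (π (π i))) * φ i = ∑ i ∈ s, w (π (π i)) * φ i := by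
      rw [← sh fun i => w (π (π i)) * φ i]; exact sum_congr rfl fun i hi => by rw [h i hi]
    have a4 : ∑ i ∈ s, (w i * φ i + w (π i) * φ i + w (π (π i)) * φ i + w (π (π (π i))) * φ i) =
        ∑ i ∈ s, 4 * φ i := sum_congr rfl fun i hi => by
      have b1 := (hs i hi).2.2.2.2
      have b2 := (hs _ (hπ i hi)).2.2.2.2
      have b3 := (hs _ (hπ _ (hπ i hi))).2.2.2.2
      have := wtA_sum (u i) (v i) (R i)
      have : (w i + w (π i) + w (π (π i)) + w (π (π (π i))) : ℚ) = 4 := by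
        simp only [hw, b1, b2, b3, neg_neg]; exact_mod_cast this
      rw [← this]; ring
    simp only [sum_add_distrib, ← mul_sum] at a4
    linarith
  have fz : ∀ (φ ψ : ι → ℤ) (n : ℤ), ∑ i ∈ s, φ i = n → (∀ i ∈ s, φ (π i) = φ i) → (∀ i, ψ i = w i * φ i) →
      ∑ i ∈ s', ψ i = n := fun φ ψ n e h k => by
    have := fl (fun i => φ i) (fun i => ψ i) (fun i hi => by rw [h i hi]) fun i => by rw [k]; push_cast; rfl
    rw [← e]; exact_mod_cast this
  have gc := fun i => sg_cases (c i) (a i) (B i)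
  have ss : ∀ i, g i * g i = 1 := fun i => by rcases gc i with h | h <;> simp [g, h]
  have w0 : ∀ i, 0 ≤ w i := fun i => by have := wtA_cases (u i) (v i) (R i); simp only [hw]; omega
  have bd : ∀ (φ : ι → ℤ) (n : ℤ), ∑ i ∈ s, φ i = n → (∀ i ∈ s, φ (π i) = φ i) → (∀ i, 0 ≤ φ i) →
      ∀ i ∈ s', w i * φ i ≤ n := fun φ n e h k i hi =>
    fz φ _ n e h (fun _ => rfl) ▸ single_le_sum (f := fun i => w i * φ i) (fun i _ => mul_nonneg (w0 i) (k i)) hi
  have n7 : ∀ i ∈ s, u (π i) * u (π i) + v (π i) * v (π i) = u i * u i + v i * v i := fun i hi => by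
    simp only [hs i hi]; ring
  have key := p1_ok (Q := Ok KA) Ok.perm okA 70 tsA (s'.toList.map r) [] (by decide) ?_ ?_ ?_ ?_
  · obtain ⟨⟨e, he, t1, t2⟩, t3⟩ := key
    rw [List.nil_append] at he t3
    obtain ⟨i, hi, rfl⟩ := List.mem_map.1 he
    have hi := (mem_filter.1 (mem_toList.1 hi)).1
    refine ⟨⟨i, hi, ?_⟩, ?_⟩
    · have := (hf i hi).2.2.2
      rcases gc i with h | h <;> simp only [r, mkA, g, h] at t1 t2 <;> omega
    · rw [List.map_map, Finset.sum_map_toList, fl (fun i => (a i * a i * a i : ℚ) / f i - 5 * ((a i * a i * c i : ℚ) / f i))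
        _ (fun i hi => by simp only [hs i hi]), sum_sub_distrib, ← mul_sum] at t3
      · linarith
      · intro i
        rcases gc i with h | h <;> simp [r, g, mkA, Ty.cs, h, div_neg] <;> ring
  · simp only [List.forall_mem_map, mem_toList]
    intro i hi'
    obtain ⟨hi, n⟩ := mem_filter.1 hi'
    obtain ⟨c1, c2, c3, c4, c5⟩ := hc i hi
    have q := single_le_sum (f := fun i => u i * u i + v i * v i)
      (fun _ _ => add_nonneg (mul_self_nonneg _) (mul_self_nonneg _)) hi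
    rw [s7] at q
    have uv : 0 ≤ u i ∧ 0 ≤ v i := by simp only [hw, wtA] at n; split_ifs at n <;> omega
    exact memA _ (mem_rg ((sq_le s1 hi).trans_lt (by norm_num))) _ (mem_rg ((sq_le s2 hi).trans_lt (by norm_num))) c1
      _ (mem_rg ((sq_le s3 hi).trans_lt (by norm_num))) c2 c3 _ (mem_rg (by push_cast; linarith [mul_self_nonneg (v i)])) uv.1
      _ (mem_rg (by push_cast; linarith [mul_self_nonneg (u i)])) uv.2 _ (mem_rg ((sq_le s8 hi).trans_lt (by norm_num))) n c4 c5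
      (bd _ _ s1 (fun i hi => by simp only [hs i hi]) (fun _ => mul_self_nonneg _) i hi')
      (bd _ _ s2 (fun i hi => by simp only [hs i hi]) (fun _ => mul_self_nonneg _) i hi')
      (bd _ _ s3 (fun i hi => by simp only [hs i hi]) (fun _ => mul_self_nonneg _) i hi')
      (bd _ _ s7 n7 (fun _ => add_nonneg (mul_self_nonneg _) (mul_self_nonneg _)) i hi')
      (bd _ _ s8 (fun i hi => by simp only [hs i hi, neg_mul_neg]) (fun _ => mul_self_nonneg _) i hi')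
  · refine Eq.trans (congrArg (p1 CA 70 tsA · []) ?_) p1A
    simp only [St.of, sm_list, St.mk.injEq, r, mkA]
    refine ⟨fz _ _ _ s1 ?_ ?_, fz _ _ _ s2 ?_ ?_, fz _ _ _ s3 ?_ ?_, fz _ _ _ s4 ?_ ?_, fz _ _ _ s5 ?_ ?_,
      fz _ _ _ s6 ?_ ?_, fz _ _ _ s7 n7 fun _ => rfl, fz _ _ _ s8 ?_ fun _ => rfl⟩
    any_goals first
      | exact fun i hi => by simp only [hs i hi, neg_mul_neg]
      | exact fun i => by rcases gc i with h | h <;> simp [g, h]
  · intro x y z p q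
    rw [List.nil_append, List.map_map, Finset.sum_map_toList, fl (fun i => x * (a i * f i : ℤ) + y * (B i * f i : ℤ) +
      z * (c i * f i : ℤ) + p * ((a i * a i * c i : ℚ) / f i) + q * ((a i * a i * B i : ℚ) / f i))
        _ (fun i hi => by simp only [hs i hi])]
    · simp only [sum_add_distrib, ← mul_sum, ← Int.cast_sum, eq_neg_of_add_eq_zero_right e1,
        eq_neg_of_add_eq_zero_right e2, eq_neg_of_add_eq_zero_right e3, eq_neg_of_add_eq_zero_right e4,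
        eq_neg_of_add_eq_zero_right e5]
      simp [phi, KA, Ty.al, Ty.be]; ring
    · intro i
      rcases gc i with h | h <;> simp [r, g, mkA, phi, Ty.al, Ty.be, h, div_neg] <;> ring
  · simp only [List.nil_append, List.forall_mem_map, mem_toList]
    intro i hi
    have := hf i (mem_filter.1 hi).1
    rcases gc i with h | h <;>
      simp only [r, g, h, Mem, mkA, Ty.dom, Dom.mem, Iv, loA, lo] <;> omega

end Cfsg.Agent.LY
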