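import Cfsg.Agent.LY.Bas
import Cfsg.Agent.LY.M5b
import Cfsg.Agent.LY.Dft
import Cfsg.Agent.LY.NumA

/-! # The case of automizer of order 15: the principal 2-block -/

set_option autoImplicit false
set_option linter.unusedSectionVars false

namespace Cfsg.Agent.LY

open Cfsg Cfsg.Agent.Char Cfsg.Agent.GT Cfsg.Agent.BS Cfsg.Agent.LyR Subgroup Function SemidirectProduct

universe u

variable {G : Type u} [Group G] [Fintype G]

/-- The local data in the main case. -/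
structure BasA (φ : T0 →* G) (η : G) (π : C1[φ z0] →* M5) (h : C1[φ z0]) : Prop extends Bas φ η π inl where
  surj : Surjective π
  ph : π h = h5
  oh : Odd (orderOf h)
  hh : ∀ s, (h : G) * φ s * (h : G)⁻¹ = φ ((κ ^ 3) s)

/-- Representatives in the section of the involution. -/
def yy {t : G} (h : C1[t]) (k : Fin 5) : G := t * (h ^ k.val : C1[t])

variable {φ : T0 →* G} {η : G} {π : C1[φ z0] →* M5} {h : C1[φ z0]}

namespace BasA

theorem md (H : BasA φ η π h) : Md (φ z0) π := ⟨piNat_phi φ z0, H.surj, H.odd, one5⟩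
theorem ok (H : BasA φ η π h) (k : ℕ) : Odd (orderOf (h ^ k)) := H.oh.of_dvd_nat (orderOf_pow_dvd _)
theorem pk (H : BasA φ η π h) (k : Fin 5) : π (h ^ k.val) = hp k := by rw [map_pow, H.ph, h5_pow]

theorem ct (H : BasA φ η π h) (k : Fin 5) : constt {2} (yy h k) = φ z0 :=
  constt_two_mul' (piNat_phi φ z0) (c1c _) (by rw [orderOf_coe]; exact H.ok k)

theorem gram (H : BasA φ η π h) (j k : Fin 5) : ∑ θ ∈ B0 G, θ (yy h j)⁻¹ * θ (yy h k) =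
    if j = k then if k = 0 then 320 else 20 else 0 := by
  rw [yy, yy, H.md.val _ _ (H.ok j) (H.ok k), H.pk, H.pk, Nat.card_eq_fintype_card, cnt5]
  split_ifs <;> simp

theorem yinv (H : BasA φ η π h) (k : Fin 5) {θ : G → ℂ} (hθ : θ ∈ B0 G) : θ (yy h k)⁻¹ = θ (yy h (-k)) := by
  rw [yy, yy, ← H.md.const (w := (h ^ k.val)⁻¹) (by rw [orderOf_inv]; exact H.ok k)
    (by rw [map_inv, H.pk, H.pk]; revert k; decide +kernel) hθ, mul_inv_rev, t_inv, ← c1c]; rfl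

theorem cjx' (H : BasA φ η π h) (j : Fin 5) : IsConj (φ (xr 0)) (φ (xr j)) :=
  isConj_iff.2 ⟨h ^ j.val, conj_it H.hh j _⟩

theorem cov (H : BasA φ η π h) {g : G} (hg : ¬ Odd (orderOf g)) :
    (∃ k, ∀ θ ∈ B0 G, θ g = θ (yy h k)) ∨ ∀ θ ∈ B0 G, θ g = θ (φ (xr 0)) := by
  classical
  obtain ⟨s, hs⟩ := exists_conj_syl H.syl (piNat_constt {2} g)
  by_cases e : s * s = 1
  · have s1 : s ≠ 1 := by
      rintro rfl
      rw [map_one, isConj_one_right, constt_eq_one_iff, piNat_two_compl] at hs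
      exact hg hs
    obtain ⟨c, w, hw, rfl⟩ := exists_sec ((H.cjz e s1).trans hs)
    obtain ⟨r, hr⟩ := cov5 (π w) ((odd5 _).1 ((odd_map H.odd w).2 hw))
    refine .inl ⟨(π w).right.toAdd, fun θ hθ => ?_⟩
    have c := (B0_irr hθ).isClassFunction
    rw [c, H.md.const hw (w' := ⟨_, phi_mem φ r⟩ * h ^ (π w).right.toAdd.val * (⟨_, phi_mem φ r⟩ : C1[φ z0])⁻¹)
      (by rw [map_mul, map_mul, map_inv, H.res, H.pk, hr]) hθ, ← c (yy h _) (φ r), yy, ← mul_assoc (φ r),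
      mem_cent1.1 (phi_mem φ r)]
    simp only [Subgroup.coe_mul, Subgroup.coe_inv, mul_assoc]
  · exact .inr fun θ hθ => (H.nil (xr_sq 0)).cst θ hθ g (((H.cjx' _).trans (H.cjx e)).trans hs)

theorem yx (H : BasA φ η π h) (k : Fin 5) : ∑ θ ∈ B0 G, θ (yy h k)⁻¹ * θ (φ (xr 0)) = 0 :=
  sum_B0_eq_zero (by rw [H.ct, ct_phi]; exact H.nc (xr_sq 0))

theorem xy (H : BasA φ η π h) (k : Fin 5) : ∑ θ ∈ B0 G, θ (φ (xr 0))⁻¹ * θ (yy h k) = 0 :=
  sum_B0_eq_zero (by rw [H.ct, ct_phi]; exact fun e => H.nc (xr_sq 0) e.symm)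

theorem y1 (H : BasA φ η π h) (k : Fin 5) {g : G} (hg : Odd (orderOf g)) : ∑ θ ∈ B0 G, θ (yy h k)⁻¹ * θ g = 0 :=
  sum_B0_eq_zero (by
    rw [H.ct, constt_of_piNat_compl (piNat_two_compl.2 hg), isConj_one_left]; exact H.ne (by decide))

theorem x1 (H : BasA φ η π h) {g : G} (hg : Odd (orderOf g)) : ∑ θ ∈ B0 G, θ (φ (xr 0))⁻¹ * θ g = 0 :=
  sum_B0_eq_zero (by
    rw [ct_phi, constt_of_piNat_compl (piNat_two_compl.2 hg), isConj_one_left]; exact H.ne (by decide))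

theorem recy (H : BasA φ η π h) {k : Fin 5} (hk : k ≠ 0) :
    ∑ θ ∈ B0 G, θ (yy h k)⁻¹ * (θ (φ z0) * θ (φ z0)) / θ 1 = 0 := by
  classical
  rw [recip, yy, Finset.sum_eq_zero fun g _ => H.md.zero _ (H.ok k) fun a w e e' => ?_, mul_zero]
  have hw : Odd (orderOf (w : G)) := by
    rw [orderOf_coe, ← odd_map H.odd, e', odd_map H.odd]; exact H.ok k
  have e1 : a * φ z0 * a⁻¹ * (φ z0 * w) * (a * φ z0 * a⁻¹)⁻¹ = (φ z0 * w)⁻¹ := by
    rw [← e]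
    simp only [mul_inv_rev, t_inv, inv_inv, mul_assoc, inv_mul_cancel_left]
    rw [← mul_assoc (φ z0) (φ z0), t_sq, one_mul]
  have e2 := congrArg (constt {2}) e1
  rw [constt_conj, constt_inv, constt_two_mul' (piNat_phi φ z0) (c1c w) hw, t_inv, mul_inv_eq_iff_eq_mul] at e2
  have e3 : (⟨_, mem_cent1.2 e2⟩ * w : C1[φ z0]) = w⁻¹ * ⟨_, mem_cent1.2 e2⟩ := Subtype.ext (by
    rw [← mul_assoc, e2, mul_inv_eq_iff_eq_mul, mul_inv_rev, t_inv, ← Subgroup.coe_inv, c1c w⁻¹, mul_assoc,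
      mul_assoc _ _ (a * _ * _), mul_right_inj] at e1
    exact e1)
  have e4 := H.cen (π ⟨_, mem_cent1.2 e2⟩) (by
    rw [← map_mul, ← π.map_one]; exact congrArg π (Subtype.ext (conj_invol (t_sq φ) a))) (π w)
  rw [← map_mul _ _ w, e3, map_mul, mul_left_inj, map_inv, e', H.pk] at e4
  exact (show ∀ k ≠ 0, hp k ≠ (hp k)⁻¹ by decide +kernel) k hk e4

theorem nz (H : BasA φ η π h) {χ : G → ℂ} (hχ : χ ∈ B1 G) :
    χ (yy h 0)⁻¹ / 320 + (χ (yy h 1)⁻¹ + χ (yy h 2)⁻¹ + χ (yy h 3)⁻¹ + χ (yy h 4)⁻¹) / 20 + χ (φ (xr 0))⁻¹ / 16 ≠ 0 := by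
  classical
  obtain ⟨n1, hχ⟩ := mem_B1.1 hχ
  set cf : (G → ℂ) → ℂ := fun χ =>
    χ (yy h 0)⁻¹ / 320 + (χ (yy h 1)⁻¹ + χ (yy h 2)⁻¹ + χ (yy h 3)⁻¹ + χ (yy h 4)⁻¹) / 20 + χ (φ (xr 0))⁻¹ / 16
  have e : ∑ θ ∈ B0 G, cf θ • θ = (fun _ => 1) - oddInd := by
    ext g
    simp only [Finset.sum_apply, Pi.smul_apply, smul_eq_mul, cf, add_mul, div_mul_eq_mul_div, add_div,
      Finset.sum_add_distrib, ← Finset.sum_div, Pi.sub_apply, oddInd]
    split_ifs with o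
    · simp [H.y1 _ o, H.x1 o]
    rcases H.cov o with ⟨k, c⟩ | c
    · have : ∀ x, ∑ θ ∈ B0 G, θ x * θ g = ∑ θ ∈ B0 G, θ x * θ (yy h k) := fun x =>
        Finset.sum_congr rfl fun θ hθ => by rw [c θ hθ]
      simp only [this, H.gram, H.xy]
      fin_cases k <;> simp
    · have : ∀ x, ∑ θ ∈ B0 G, θ x * θ g = ∑ θ ∈ B0 G, θ x * θ (φ (xr 0)) := fun x =>
        Finset.sum_congr rfl fun θ hθ => by rw [c θ hθ]
      simp [this, H.yx, (H.nil (xr_sq 0)).val]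
  have := ci_sum_smul_orthonormal (B0 G) id (fun a ha b hb => (B0_irr ha).ci_eq_ite (B0_irr hb)) cf hχ
  simp only [id] at this
  rw [e, ci_sub_left, isIrrCharacter_one.ci_of_ne (B0_irr hχ) n1.symm, ci_eq_sum_inv _ (B0_irr hχ).isCharacter,
    ← Equiv.sum_comp (Equiv.inv G)] at this
  obtain ⟨i, n, hn, e⟩ := mem_B0.1 hχ
  rw [omega, div_eq_iff i.apply_one_ne_zero] at e
  simp only [Equiv.inv_apply, inv_inv, oddInd, orderOf_inv] at this e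
  change cf χ ≠ 0
  rw [← this, e, zero_sub]
  exact neg_ne_zero.2 (mul_ne_zero (inv_ne_zero (card_ne_zero_complex G))
    (mul_ne_zero (Int.cast_ne_zero.2 (by rintro rfl; simp at hn)) i.apply_one_ne_zero))

theorem col [IsSimpleGroup G] (H : BasA φ η π h) : (∃ χ ∈ B1 G, χ (φ z0) = -4 ∧ χ 1 = 12) ∧
    ∑ θ ∈ B0 G, θ (φ z0)⁻¹ * (θ (φ z0) * θ (φ z0)) / θ 1 = 128 / 39 := by
  classical
  have hd : ∀ θ ∈ B0 G, ∃ d : Fin 5 → ℤ, ∀ k, θ (yy h k) = ev d k := fun θ hθ => by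
    refine fourier (B0_irr hθ).isCharacter (t_sq φ) (c1c h).symm ?_ fun k => ?_
    · rw [orderOf_coe]
      refine dvd_trans ?_ (orderOf_map_dvd π h)
      have : Fact (Nat.Prime 5) := ⟨by decide⟩
      rw [H.ph, orderOf_eq_prime h5_five (by decide +kernel)]
    · exact H.md.const (w := h ^ (k + 5)) (w' := h ^ k) (H.ok _) (by simp [pow_add, H.ph, h5_five]) hθ
  choose! d hd using hd
  obtain ⟨c, hc⟩ := phi_int φ (xr 0)
  obtain ⟨f, hf⟩ := exists_deg (G := G)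
  obtain ⟨σ, hσ⟩ := exists_ringEquiv_pow (n := 5) (k := 2) (by decide) (by decide)
  have y0 : yy h 0 = φ z0 := by simp [yy]
  set a : (G → ℂ) → ℤ := fun θ => d θ 0 + d θ 1 + d θ 2 + d θ 3 + d θ 4 with ea
  set B : (G → ℂ) → ℤ := fun θ => 4 * d θ 0 - d θ 1 - d θ 2 - d θ 3 - d θ 4 with eB
  have hs := ζ5_sum
  have ng : (-1 : Fin 5) = 4 ∧ (-2 : Fin 5) = 3 ∧ (-3 : Fin 5) = 2 ∧ (-4 : Fin 5) = 1 := by decide
  have ha : ∀ θ ∈ B0 G, θ (φ z0) = a θ := fun θ hθ => by rw [← y0, hd θ hθ]; simp [ev, Fin.sum_univ_five, e5, ea]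
  have hB : ∀ θ ∈ B0 G, θ (yy h 1) + θ (yy h 2) + θ (yy h 3) + θ (yy h 4) = B θ := fun θ hθ => by
    simp [hd θ hθ, ev, Fin.sum_univ_five, e5, eB]
    linear_combination (d θ 1 + d θ 2 + d θ 3 + d θ 4) * hs
  have hB' : ∀ θ ∈ B0 G, θ (yy h 1)⁻¹ + θ (yy h 2)⁻¹ + θ (yy h 3)⁻¹ + θ (yy h 4)⁻¹ = B θ := fun θ hθ => by
    simp only [H.yinv _ hθ, ← hB θ hθ, ng]; ring
  have bil : ∀ p q : Fin 5 → ℂ, ∑ θ ∈ B0 G, (∑ j, p j * θ (yy h j)⁻¹) * ∑ k, q k * θ (yy h k) =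
      320 * (p 0 * q 0) + 20 * (p 1 * q 1 + p 2 * q 2 + p 3 * q 3 + p 4 * q 4) := fun p q => by
    simp only [Finset.sum_mul_sum, mul_mul_mul_comm (p _)]
    rw [Finset.sum_comm]
    simp only [Finset.sum_comm (s := B0 G), ← Finset.mul_sum, H.gram]
    simp [Fin.sum_univ_five]; ring
  have key := numA (B1 G) a B c f (fun θ => d θ 1 - d θ 4) (fun θ => d θ 2 - d θ 3)
    (fun θ => d θ 1 + d θ 4 - d θ 2 - d θ 3) (fun θ g => σ (θ g)) (fun θ hθ => ?_) (fun θ _ θ' _ e => ?_)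
    (fun θ hθ => ?_) (fun θ hθ => ?_) (fun θ hθ => ?_) ?_ ?_ ?_ ?_ ?_ ?_ ?_ ?_ ?_ ?_ ?_ ?_ ?_
  · obtain ⟨⟨χ, hχ, e1, e2⟩, e3⟩ := key
    have hχ' := (mem_B1.1 hχ).2
    refine ⟨⟨χ, hχ, by rw [ha χ hχ', e1]; simp, by rw [hf χ hχ', e2]; simp⟩, ?_⟩
    rw [← Finset.add_sum_erase _ _ one_mem_B0, Finset.sum_congr rfl fun θ hθ =>
      show _ = (((a θ * a θ * a θ : ℚ) / f θ : ℚ) : ℂ) by
        have hθ := Finset.mem_of_mem_erase hθ
        simp [t_inv, ha θ hθ, hf θ hθ, mul_assoc]]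
    simpa [B1] using congrArg (Rat.cast : ℚ → ℂ) e3
  · refine mem_B1.2 ⟨fun e => (mem_B1.1 hθ).1 (funext fun g => σ.injective ?_), map_B0 σ (mem_B1.1 hθ).2⟩
    rw [map_one]; exact congrFun e g
  · exact funext fun g => σ.injective (congrFun e g)
  · have hθ := (mem_B1.1 hθ).2
    have m := map_B0 σ hθ
    have e : ∀ j, d (fun g => σ (θ g)) j = d θ (3 * j) :=
      ev_inj fun k => by rw [← hd _ m, hd θ hθ, ev_map (hσ _ ζ5_pow)]
    have e1 : c (fun g => σ (θ g)) = c θ := Int.cast_injective (α := ℂ) ((hc _ m).1.symm.trans (by simp [hc θ hθ]))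
    have e2 : f (fun g => σ (θ g)) = f θ := Int.cast_injective (α := ℂ) ((hf _ m).symm.trans (by simp [hf θ hθ]))
    simp only [ea, eB, e, e1, e2, Fin.reduceMul, true_and]
    omega
  · have hθ' := (mem_B1.1 hθ).2
    have := H.nz hθ
    rw [hB' θ hθ', y0, t_inv, ha θ hθ', (hc θ hθ').2] at this
    refine ⟨by simp only [ea, eB]; omega, H.c44 (B0_irr hθ').isCharacter 0 (hf θ hθ') (ha θ hθ') (hc θ hθ').1,
      fun e => this (by simp [e]), by simp only [ea, eB]; omega, by simp only [ea, eB]; omega⟩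
  · obtain ⟨n, hθ⟩ := mem_B1.1 hθ
    obtain ⟨m, e⟩ := H.c64 (c := fun _ => c θ) (B0_irr hθ).isCharacter (hf θ hθ) (ha θ hθ) fun k => by
      rw [← (B0_irr hθ).isClassFunction.eq_of_isConj (H.cjx' k), (hc θ hθ).1]
    simp at e
    exact ⟨by omega, by omega, lt_degree (B0_irr hθ) n (H.ne (by decide)) (ha θ hθ) (hf θ hθ)⟩
  · have := zsum (φ := fun θ => a θ * a θ) (m := 320) (k := 1) (fun θ hθ => by simp [y0, t_inv, ha θ hθ])
      ((H.gram 0 0).trans (by simp)) (by simp)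
    omega
  · have := zsum (φ := fun θ => B θ * B θ) (m := 80) (k := 16) (fun θ hθ => by
      simp [Fin.sum_univ_five, hB θ hθ, hB' θ hθ]) ((bil ![0, 1, 1, 1, 1] ![0, 1, 1, 1, 1]).trans (by simp; norm_num))
      (by simp [Fin.sum_univ_five]; norm_num)
    omega
  · have := zsum (φ := fun θ => c θ * c θ) (m := 16) (k := 1) (fun θ hθ => by simp [hc θ hθ])
      (H.nil (xr_sq 0)).val (by simp)
    omega
  · have := zsum (φ := fun θ => a θ * B θ) (m := 0) (k := 4) (fun θ hθ => by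
      simp [Fin.sum_univ_five, hB θ hθ, y0, t_inv, ha θ hθ]) ((bil ![1, 0, 0, 0, 0] ![0, 1, 1, 1, 1]).trans (by simp))
      (by simp [Fin.sum_univ_five]; norm_num)
    omega
  · have := zsum (φ := fun θ => a θ * c θ) (m := 0) (k := 1) (fun θ hθ => by simp [hc θ hθ, y0, t_inv, ha θ hθ])
      ((H.yx 0).trans (by simp)) (by simp)
    omega
  · have := zsum (φ := fun θ => B θ * c θ) (m := 0) (k := 4)
      (F := fun θ => (θ (yy h 1)⁻¹ + θ (yy h 2)⁻¹ + θ (yy h 3)⁻¹ + θ (yy h 4)⁻¹) * θ (φ (xr 0)))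
      (fun θ hθ => by simp [hc θ hθ, hB' θ hθ]) (by simp [add_mul, Finset.sum_add_distrib, H.yx]) (by norm_num)
    omega
  · have := zsum (φ := fun θ => 5 * ((d θ 1 - d θ 4) * (d θ 1 - d θ 4) + (d θ 2 - d θ 3) * (d θ 2 - d θ 3))) (m := 80)
      (k := 0) (fun θ hθ => ?_) ((Finset.sum_add_distrib.trans (congrArg₂ _ (bil ![0, 1, 0, 0, -1] ![0, 1, 0, 0, -1])
        (bil ![0, 0, 1, -1, 0] ![0, 0, 1, -1, 0]))).trans (by simp; norm_num)) (by simp [Fin.sum_univ_five])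
    · rw [← Finset.mul_sum] at this; omega
    · simp [Fin.sum_univ_five, H.yinv _ hθ, ng, hd θ hθ, ev, e5]
      linear_combination (((d θ 1 - d θ 4) ^ 2 + (d θ 2 - d θ 3) ^ 2) * (-ζ5 ^ 4 + ζ5 ^ 3 - ζ5 ^ 2 + 5 * ζ5 - 5)) * hs
  · have := zsum (φ := fun θ => 5 * ((d θ 1 + d θ 4 - d θ 2 - d θ 3) * (d θ 1 + d θ 4 - d θ 2 - d θ 3))) (m := 80)
      (k := 0) (fun θ hθ => ?_) ((bil ![0, 1, -1, -1, 1] ![0, 1, -1, -1, 1]).trans (by simp; norm_num))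
      (by simp [Fin.sum_univ_five])
    · rw [← Finset.mul_sum] at this; omega
    · simp [Fin.sum_univ_five, H.yinv _ hθ, ng, hd θ hθ, ev, e5]
      linear_combination ((d θ 1 + d θ 4 - d θ 2 - d θ 3) ^ 2 * (ζ5 ^ 4 - 3 * ζ5 ^ 3 + ζ5 ^ 2 + 5 * ζ5 - 5)) * hs
  · exact zsum (fun θ hθ => by simp [hf θ hθ, y0, t_inv, ha θ hθ]) ((H.y1 0 (g := 1) (by simp)).trans (by simp))
      (by simp)
  · exact zsum (F := fun θ => (θ (yy h 1)⁻¹ + θ (yy h 2)⁻¹ + θ (yy h 3)⁻¹ + θ (yy h 4)⁻¹) * θ 1)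
      (fun θ hθ => by simp [hf θ hθ, hB' θ hθ])
      (by simp [add_mul, Finset.sum_add_distrib, H.y1 _ (g := 1) (by simp)]) (by norm_num)
  · exact zsum (fun θ hθ => by simp [hf θ hθ, hc θ hθ]) ((H.x1 (g := 1) (by simp)).trans (by simp)) (by simp)
  · exact qsum (fun θ hθ => by simp [hc θ hθ, ha θ hθ, hf θ hθ]; ring)
      ((H.rec4 (xr_sq 0)).trans Rat.cast_zero.symm) (by simp)
  · exact qsum (F := fun θ => (θ (yy h 1)⁻¹ + θ (yy h 2)⁻¹ + θ (yy h 3)⁻¹ + θ (yy h 4)⁻¹) *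
      (θ (φ z0) * θ (φ z0)) / θ 1) (fun θ hθ => by simp [hB' θ hθ, ha θ hθ, hf θ hθ]; ring)
      (by simp [add_mul, add_div, Finset.sum_add_distrib, H.recy]) (by norm_num)

end BasA

end Cfsg.Agent.LY
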