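import Cfsg.Agent.LY.NumD

set_option autoImplicit false
set_option maxRecDepth 100000

namespace Cfsg.Agent.LY

open Finset

def rg (n : ℕ) : List ℤ := (List.range (2 * n + 1)).map fun i : ℕ => (i : ℤ) - n

theorem mem_rg {n : ℕ} {a : ℤ} (h : a * a < (n + 1) * (n + 1)) : a ∈ rg n := by
  have h1 : a ≤ n := by nlinarith
  have h2 : -a ≤ n := by nlinarith
  exact List.mem_map.2 ⟨(a + n).toNat, List.mem_range.2 (by omega), by omega⟩

def sg (c a B : ℤ) : ℤ := if 0 < c ∨ c = 0 ∧ (0 < a ∨ a = 0 ∧ 0 < B) then 1 else -1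
def lo (r m : ℤ) : ℤ := m + (r - m) % 64

theorem sg_cases (c a B : ℤ) : sg c a B = 1 ∨ sg c a B = -1 := by unfold sg; split_ifs <;> simp

theorem sm_list {ι : Type*} (s : Finset ι) (e : ι → Ty × ℤ) (φ : Ty → ℤ) :
    sm φ (s.toList.map e) = ∑ i ∈ s, φ (e i).1 := by
  rw [sm, List.map_map, Finset.sum_map_toList]; rfl

def loB (a C : ℤ) : ℤ := lo (-3 * a - 12 * C) (max (-3 * a - 12 * C) (max (a + 1) 1))
def mkB (a C Q : ℤ) : Ty := ⟨1, a, C, 0, Q, 0, -3 * a - 12 * C, loB a C, loB (-a) (-C)⟩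

theorem memB : ∀ a ∈ rg 7, ∀ c0 ∈ rg 3, 4 ∣ a - c0 → ∀ c1 ∈ rg 3, 4 ∣ a - c1 → ∀ c2 ∈ rg 3, 4 ∣ a - c2 →
    ∀ c3 ∈ rg 3, 4 ∣ a - c3 → ∀ c4 ∈ rg 3, 4 ∣ a - c4 →
    (c0 + c1 + c2 + c3 + c4) * (c0 + c1 + c2 + c3 + c4) ≤ 55 →
    ¬ (a = 0 ∧ c0 * c0 + c1 * c1 + c2 * c2 + c3 * c3 + c4 * c4 = 0) →
    mkB (sg 0 a (c0 + c1 + c2 + c3 + c4) * a) (sg 0 a (c0 + c1 + c2 + c3 + c4) * (c0 + c1 + c2 + c3 + c4))
      (c0 * c0 + c1 * c1 + c2 * c2 + c3 * c3 + c4 * c4) ∈ tsB := by decide +kernel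

theorem sq_le {ι : Type*} {s : Finset ι} {a : ι → ℤ} {n : ℤ} (h : ∑ i ∈ s, a i * a i = n) {i : ι} (hi : i ∈ s) :
    a i * a i ≤ n := h ▸ single_le_sum (f := fun i => a i * a i) (fun _ _ => mul_self_nonneg _) hi

theorem numB {ι : Type*} (s : Finset ι) (a f : ι → ℤ) (c : Fin 5 → ι → ℤ) (C : ι → ℤ) (hC : ∀ i, C i = ∑ k, c k i)
    (h4 : ∀ i ∈ s, ∀ k, 4 ∣ a i - c k i) (hf : ∀ i ∈ s, 64 ∣ f i + 3 * a i + 12 * C i ∧ 0 ≤ f i + 3 * a i + 12 * C i ∧
      a i < f i ∧ 0 < f i) (sa : ∑ i ∈ s, a i * a i = 63) (sc : ∀ k, ∑ i ∈ s, c k i * c k i = 15)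
    (sC : ∑ i ∈ s, C i * C i = 55) (saC : ∑ i ∈ s, a i * C i = -5)
    (e : (5 : ℚ) + ∑ i ∈ s, (a i * a i * C i : ℚ) / f i = 0) : False := by
  classical
  set Q : ι → ℤ := fun i => ∑ k, c k i * c k i with hQ
  set s' := s.filter fun i => ¬ (a i = 0 ∧ Q i = 0)
  set r : ι → Ty × ℤ := fun i => (mkB (sg 0 (a i) (C i) * a i) (sg 0 (a i) (C i) * C i) (Q i), sg 0 (a i) (C i) * f i)
  have z : ∀ i, a i = 0 ∧ Q i = 0 → C i = 0 := fun i h => by
    rw [hC]
    exact sum_eq_zero fun k hk => mul_self_eq_zero.1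
      ((sum_eq_zero_iff_of_nonneg fun k _ => mul_self_nonneg (c k i)).1 h.2 k hk)
  have fl : ∀ {M : Type} [AddCommMonoid M] (φ ψ : ι → M), (∀ i, a i = 0 ∧ Q i = 0 → φ i = 0) → (∀ i, ψ i = φ i) →
      ∑ i ∈ s', ψ i = ∑ i ∈ s, φ i := fun φ ψ h k => by
    rw [funext k]; exact sum_filter_of_ne fun i _ n m => n (h i m)
  have ss : ∀ i, sg 0 (a i) (C i) * sg 0 (a i) (C i) = 1 := fun i => by
    rcases sg_cases 0 (a i) (C i) with h | h <;> simp [h]
  have := p1_ok (Q := fun l => (∀ e ∈ l, Mem e e.1.dom) → 0 < (50 : ℚ) + (l.map (phi 0 0 0 0 10)).sum)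
    (fun h p m => by rw [← (p.map _).sum_eq]; exact h fun e i => m e (p.mem_iff.1 i)) (C := CB)
    (fun l hl m => by
      have := chkL_ok (l := l) (ds := (l.map Prod.fst).map Ty.dom) (by
        rw [List.map_map, List.forall₂_map_right_iff, List.forall₂_same]; exact m) (p2B _ hl)
      exact_mod_cast this) 40 tsB (s'.toList.map r) [] (by decide) ?_ ?_ ?_
  · rw [List.nil_append, List.map_map, Finset.sum_map_toList, fl (fun i => 10 * ((a i * a i * C i : ℚ) / f i)),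
      ← mul_sum] at this
    · linarith
    · exact fun i h => by simp [h.1]
    · intro i
      rcases sg_cases 0 (a i) (C i) with h | h <;> simp [r, phi, mkB, Ty.al, Ty.be, h, neg_div_neg_eq] <;> ring
  · simp only [List.forall_mem_map, mem_toList]
    intro i hi
    obtain ⟨hi, n⟩ := mem_filter.1 hi
    have b := fun k => mem_rg (n := 3) ((sq_le (sc k) hi).trans_lt (by norm_num))
    have := memB _ (mem_rg (n := 7) ((sq_le sa hi).trans_lt (by norm_num))) _ (b 0) (h4 i hi 0) _ (b 1) (h4 i hi 1)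
      _ (b 2) (h4 i hi 2) _ (b 3) (h4 i hi 3) _ (b 4) (h4 i hi 4)
    simp only [← Fin.sum_univ_five (fun k => c k i), ← Fin.sum_univ_five (fun k => c k i * c k i), ← hC] at this
    exact this (sq_le sC hi) n
  · refine Eq.trans (congrArg (p1 CB 40 tsB · []) ?_) p1B
    simp only [St.of, sm_list, St.mk.injEq, r, mkB]
    refine ⟨(fl _ _ ?_ ?_).trans sa, (fl _ _ ?_ ?_).trans sC, by simp, (fl _ _ ?_ ?_).trans saC, by simp, by simp,
      (fl Q _ (fun i h => h.2) (by simp)).trans ?_, by simp⟩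
    any_goals first
      | exact fun i h => by simp [h.1, z i h]
      | exact fun i => by linear_combination (a i * a i) * ss i
      | exact fun i => by linear_combination (C i * C i) * ss i
      | exact fun i => by linear_combination (a i * C i) * ss i
    rw [sum_comm]; simp [sc]
  · simp only [List.nil_append, List.forall_mem_map, mem_toList]
    intro i hi
    have := hf i (mem_filter.1 hi).1
    rcases sg_cases 0 (a i) (C i) with h | h <;>
      simp only [r, h, Mem, mkB, Ty.dom, Dom.mem, Iv, loB, lo] <;> omega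

theorem numE {ι : Type*} (s : Finset ι) (c : Fin 3 → ι → ℤ) (h4 : ∀ i ∈ s, 4 ∣ c 0 i - c 1 i ∧ 4 ∣ c 0 i - c 2 i)
    (hz : ∀ i ∈ s, c 0 i = c 1 i → c 0 i = c 2 i → c 0 i = 0) (sc : ∀ k, ∑ i ∈ s, c k i * c k i = 15)
    (sd : ∀ j k, j ≠ k → ∑ i ∈ s, c j i * c k i = -1) : False := by
  classical
  have key : ∀ a ∈ rg 3, ∀ b ∈ rg 3, ∀ c ∈ rg 3, 4 ∣ a - b → 4 ∣ a - c → (a = b → a = c → a = 0) →
      ∀ Q, Q = a * a + b * b + c * c →
      Q = 11 * (if Q = 11 then 1 else 0) + 12 * (if Q = 12 then 1 else 0) + 19 * (if Q = 19 then 1 else 0) ∧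
      Q - (a * b + a * c + b * c) =
        16 * (if Q = 11 then 1 else 0) + 16 * (if Q = 12 then 1 else 0) + 16 * (if Q = 19 then 1 else 0) := by
    simp only [forall_eq]; decide +kernel
  set Q := fun i => c 0 i * c 0 i + c 1 i * c 1 i + c 2 i * c 2 i
  have b := fun i hi k => mem_rg (n := 3) ((sq_le (sc k) (i := i) hi).trans_lt (by norm_num))
  have k := fun i hi => key _ (b i hi 0) _ (b i hi 1) _ (b i hi 2) (h4 i hi).1 (h4 i hi).2 (hz i hi) (Q i) rfl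
  have e1 := sum_congr rfl fun i hi => (k i hi).1
  have e2 := sum_congr rfl fun i hi => (k i hi).2
  have n : ∀ m, 0 ≤ ∑ i ∈ s, if Q i = m then (1 : ℤ) else 0 := fun m => sum_nonneg fun _ _ => by split_ifs <;> simp
  have e3 : ∑ i ∈ s, Q i = 45 := by simp only [Q, sum_add_distrib, sc]; rfl
  simp only [sum_add_distrib, sum_sub_distrib, ← mul_sum, e3, sd 0 1 (by decide), sd 0 2 (by decide),
    sd 1 2 (by decide)] at e1 e2
  have := n 11; have := n 12; have := n 19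
  omega

end Cfsg.Agent.LY
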