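import Cfsg.Agent.LY.Col
import Cfsg.Agent.LY.NumB
import Cfsg.Agent.LY.M5
import Cfsg.Agent.BS.ZStar

/-! # Elementary abelian Sylow 2-subgroups of order 16 with automizer of order 5 -/

set_option autoImplicit false
set_option linter.unusedSectionVars false

namespace Cfsg.Agent.LY

open Cfsg Cfsg.Agent.Char Cfsg.Agent.GT Cfsg.Agent.BS Cfsg.Agent.LyR Subgroup

universe u

/-- The discrete logarithm on the Frattini quotient. -/
def lg (s : T0) : ℕ := (14688061253356765440 >>> (4 * (s.v % 16))) % 16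

theorem lg_spec : ∀ s : T0, s * s ≠ 1 → (kf^[lg s] u0)⁻¹ * s * ((kf^[lg s] u0)⁻¹ * s) = 1 := by decide +kernel

def ef (m : ℕ) (s : T0) : ℤ := if (27030 >>> (s.v &&& m)) % 2 = 1 then -1 else 1
def eps (m : ℕ) (h : ∀ x y, ef m (x * y) = ef m x * ef m y) : T0 →* ℤ := 
  ⟨⟨ef m, by rw [ef, show (1 : T0).v = 0 from rfl, Nat.zero_and]; rfl⟩, h⟩
def k4 (s : T0) : Fin 4 := if s * s = 1 then 0 else Fin.ofNat 4 (lg s % 3 + 1)

theorem conj_it {G : Type u} [Group G] {φ : T0 →* G} {h : G} {n : ℕ} (hh : ∀ s, h * φ s * h⁻¹ = φ ((κ ^ n) s))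
    (j : ℕ) (s : T0) : h ^ j * φ s * (h ^ j)⁻¹ = φ (kf^[n * j] s) := by
  induction j with
  | zero => simp
  | succ j ih =>
    rw [Nat.mul_succ, add_comm (n * j), Function.iterate_add_apply, ← κ_pow n, ← hh, ← ih]; group

theorem exists_conj_syl {G : Type u} [Group G] [Finite G] {φ : T0 →* G} (hV : IsPiHallOf {2} φ.range ⊤) {u : G}
    (hu : PiNat {2} (orderOf u)) : ∃ s, IsConj (φ s) u := by
  obtain ⟨g, -, hg⟩ := syl_exists_conj_le Nat.prime_two hV ((isPGroup_zpowers_iff Nat.prime_two).2 hu) le_top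
  obtain ⟨s, e⟩ := hg (conj_mem_conj.2 (mem_zpowers u))
  exact ⟨s, (isConj_iff.2 ⟨g, e.symm⟩).symm⟩

theorem piNat_phi {G : Type u} [Group G] (φ : T0 →* G) (s : T0) : PiNat {2} (orderOf (φ s)) := by
  have : orderOf (φ s) ∣ 2 ^ 2 := orderOf_dvd_of_pow_eq_one (by
    rw [← map_pow, show s ^ 2 ^ 2 = 1 by rw [← four s]; simp [pow_succ, mul_assoc], map_one])
  exact fun p hp h => (Nat.prime_dvd_prime_iff_eq hp Nat.prime_two).1 (hp.dvd_of_dvd_pow (h.trans this))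

theorem e16 {H : Type u} [Group H] [Finite H] (φ : T0 →* H) (hk : ∀ s, φ s = 1 ↔ s * s = 1)
    (hV : IsPiHallOf {2} φ.range ⊤) (h : H) (hh : ∀ s, h * φ s * h⁻¹ = φ ((κ ^ 3) s))
    (hN : ∀ n ∈ N[φ.range], ∃ k : ℕ, ∀ s, n * φ s * n⁻¹ = φ ((κ ^ (3 * k)) s)) :
    ∃ K : Subgroup H, K.Normal ∧ φ.range ≤ K ∧ K ≠ ⊤ := by
  classical
  have := Fintype.ofFinite H
  by_contra hK
  have eq : ∀ {a b}, φ a = φ b ↔ a⁻¹ * b * (a⁻¹ * b) = 1 := fun {a b} => by
    rw [← hk, map_mul, map_inv, inv_mul_eq_one]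
  have cm : φ.range ≤ C[φ.range] := by
    have : ∀ a b : T0, (b * a)⁻¹ * (a * b) * ((b * a)⁻¹ * (a * b)) = 1 := by decide +kernel
    rintro _ ⟨a, rfl⟩ _ ⟨b, rfl⟩
    rw [← map_mul, ← map_mul]; exact eq.2 (this a b)
  have hN' : ∀ n ∈ N[φ.range], ∃ k < 5, ∀ s, n * φ s * n⁻¹ = φ (kf^[3 * k] s) := fun n hn => by
    obtain ⟨k, e⟩ := hN n hn
    refine ⟨k % 5, Nat.mod_lt _ (by decide), fun s => ?_⟩
    rw [e, κ_pow, ← kf_it, show 3 * k % 15 = 3 * (k % 5) by omega]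
  let u : Fin 3 → H := fun k => φ (kf^[k.val] u0)
  have uu : ∀ k, u k * u k = 1 := fun k => by
    rw [← map_mul, hk]; exact four _
  have ui : ∀ k, (u k)⁻¹ = u k := fun k => inv_eq_of_mul_eq_one_right (uu k)
  have fus : ∀ i j k, ∀ n ∈ N[φ.range], n * u i * n⁻¹ = u j → i = j ∧ n * u k * n⁻¹ = u k := fun i j k n hn e => by
    have : ∀ l < 5, ∀ i j : Fin 3, (kf^[3 * l] (kf^[i.val] u0))⁻¹ * kf^[j.val] u0 *
      ((kf^[3 * l] (kf^[i.val] u0))⁻¹ * kf^[j.val] u0) = 1 → i = j ∧ l = 0 := by decide +kernel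
    obtain ⟨l, hl, e'⟩ := hN' n hn
    obtain ⟨a, rfl⟩ := this l hl i j (eq.1 ((e' _).symm.trans e))
    exact ⟨a, e' _⟩
  have nc : ∀ i j, i ≠ j → ¬ IsConj (u i) (u j) := fun i j hij hc => by
    obtain ⟨g, hg⟩ := isConj_iff.1 hc
    obtain ⟨n, hn, c, hc, rfl⟩ := syl_fusion_cent Nat.prime_two hV (mem_top g) (Y := {u i})
      (by rintro _ rfl; exact cm ⟨_, rfl⟩) (by rintro _ rfl; rw [hg]; exact cm ⟨_, rfl⟩)
    refine hij (fus i j i n hn.2 ?_).1
    rw [← hg, mul_assoc n c, mem_cent1.1 hc.2]; group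
  have c16 : Nat.card φ.range = 16 := by
    have a := card_eq_card_ker_mul φ.rangeRestrict φ.rangeRestrict_surjective
    have b : Nat.card φ.rangeRestrict.ker = 4 := by
      rw [MonoidHom.ker_rangeRestrict]
      exact (Nat.card_congr (Equiv.subtypeEquivRight hk)).trans (Nat.card_eq_fintype_card.trans (by decide +kernel))
    rw [card_T0, b] at a; omega
  have nil : ∀ k, Nil (u k) 16 := fun k => by
    rw [← c16]
    refine nil_of_burnside (piNat_phi φ _) (hV.of_le (fun x hx => cent_le_cent1 (φ.mem_range.2 ⟨_, rfl⟩) (cm hx)) le_top) ?_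
    rintro n ⟨h1, h2⟩ _ ⟨s, rfl⟩
    obtain ⟨l, hl, e'⟩ := hN' n h2
    have : ∀ l < 5, ∀ i : Fin 3, (kf^[3 * l] (kf^[i.val] u0))⁻¹ * kf^[i.val] u0 *
      ((kf^[3 * l] (kf^[i.val] u0))⁻¹ * kf^[i.val] u0) = 1 → l = 0 := by decide +kernel
    obtain rfl := this l hl k (eq.1 ((e' _).symm.trans (mul_inv_eq_iff_eq_mul.2 (mem_cent1.1 h1))))
    exact (mul_inv_eq_iff_eq_mul.1 (e' s)).symm
  have cj : ∀ s, s * s ≠ 1 → IsConj (u ⟨lg s % 3, Nat.mod_lt _ (by decide)⟩) (φ s) := fun s hs =>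
    isConj_iff.2 ⟨h ^ (lg s / 3), by
      rw [conj_it hh, ← Function.iterate_add_apply, Nat.div_add_mod]; exact eq.2 (lg_spec s hs)⟩
  have hc : ∀ k, ∀ θ ∈ B0 H, ∃ n : ℤ, θ (u k) = n := fun k θ hθ =>
    int_of_four (B0_irr hθ).isCharacter (by rw [pow_succ, pow_succ, pow_two, uu, one_mul, uu]) (by rw [ui])
  choose! c hc using hc
  have ct := fun k : Fin 3 => constt_of_piNat (piNat_phi φ (kf^[k.val] u0))
  refine numE (B1 H) c (fun θ hθ => ?_) (fun θ hθ e1 e2 => ?_) (fun k => ?_) fun j k hjk => ?_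
  · have hθ := (mem_B1.1 hθ).2
    have χ := (B0_irr hθ).isCharacter
    obtain ⟨f, hf⟩ := χ.exists_degree
    have hv : ∀ r, θ (φ r) = (![(f : ℤ), c 0 θ, c 1 θ, c 2 θ] (k4 r) : ℤ) := fun r => by
      unfold k4
      split_ifs with a
      · simp [(hk r).2 a, hf]
      · rw [← χ.isClassFunction.eq_of_isConj (cj r a), hc _ θ hθ]
        rcases show lg r % 3 = 0 ∨ lg r % 3 = 1 ∨ lg r % 3 = 2 by omega with e | e | e <;> simp only [e] <;> rfl
    obtain ⟨m0, e0⟩ := tsum χ φ (eps 7 (by decide +kernel)) k4 _ hv ![4, -12, 4, 4] (by decide +kernel)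
    obtain ⟨m1, e1⟩ := tsum χ φ (eps 1 (by decide +kernel)) k4 _ hv ![4, 4, -12, 4] (by decide +kernel)
    obtain ⟨m2, e2⟩ := tsum χ φ (eps 3 (by decide +kernel)) k4 _ hv ![4, 4, 4, -12] (by decide +kernel)
    simp [Fin.sum_univ_four] at e0 e1 e2
    omega
  · obtain ⟨n1, hθ⟩ := mem_B1.1 hθ
    have χ := B0_irr hθ
    have hv : ∀ s, s * s ≠ 1 → θ (φ s) = c 0 θ := fun r a => by
      rw [← χ.isClassFunction.eq_of_isConj (cj r a), hc _ θ hθ]
      rcases show lg r % 3 = 0 ∨ lg r % 3 = 1 ∨ lg r % 3 = 2 by omega with e | e | e <;> simp only [e]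
      exacts [rfl, congrArg _ e1.symm, congrArg _ e2.symm]
    have a : ∀ g, θ (g * u 0 * g⁻¹ * u 1) = c 0 θ := fun g => by
      obtain ⟨s, hs⟩ := exists_conj_syl hV (piNat_constt {2} (g * u 0 * g⁻¹ * u 1))
      have s1 : s * s ≠ 1 := fun e => by
        rw [(hk s).2 e, isConj_one_right, constt_eq_one_iff, piNat_two_compl] at hs
        obtain ⟨k, e⟩ := conj_of_odd (conj_invol (uu 0) g) (uu 1) hs
        refine nc 0 1 (by decide) ((isConj_iff.2 ⟨g, rfl⟩).trans (isConj_iff.2 ⟨(g * u 0 * g⁻¹ * u 1) ^ k, ?_⟩))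
        nth_rewrite 2 [e]; group
      rw [(nil _).cst θ hθ _ ((cj s s1).trans hs), χ.isClassFunction.eq_of_isConj (cj s s1), hv s s1]
    have b := χ.sum_conj_mul (u 0) (u 1)
    simp only [a, hc _ θ hθ, ← e1, Finset.sum_const, Finset.card_univ, nsmul_eq_mul, Nat.card_eq_fintype_card] at b
    by_contra n
    have : θ 1 = c 0 θ := mul_right_cancel₀ (mul_ne_zero (Nat.cast_ne_zero.2 Fintype.card_ne_zero)
      (Int.cast_ne_zero.2 n)) (b.trans (by ring))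
    refine hK ⟨chKer θ, chKer_normal χ.isClassFunction, ?_, fun e => n1 (χ.eq_one_of_forall fun g =>
      apply_eq_of_mem_chKer (e ▸ mem_top g))⟩
    rintro _ ⟨s, rfl⟩
    rw [χ.isCharacter.mem_chKer_iff]
    by_cases e : s * s = 1
    · rw [(hk s).2 e]
    · rw [hv s e, this]
  · have := zsum (φ := fun θ => c k θ * c k θ) (m := 16) (k := 1) (fun θ hθ => by rw [ui, hc k θ hθ]; simp)
      (nil k).val (by simp)
    omega
  · have := zsum (φ := fun θ => c j θ * c k θ) (m := 0) (k := 1) (fun θ hθ => by rw [ui, hc k θ hθ, hc j θ hθ]; simp)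
      ((sum_B0_eq_zero (x := u j) (y := u k) (by rw [ct, ct]; exact nc j k hjk)).trans Int.cast_zero.symm) (by simp)
    omega

end Cfsg.Agent.LY
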