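import Cfsg.Agent.LY.CaseA

/-! # The centralizer of an involution and the group order -/

set_option autoImplicit false
set_option linter.unusedSectionVars false

namespace Cfsg.Agent.LY

open Cfsg Cfsg.Agent.Char Cfsg.Agent.GT Cfsg.Agent.BS Cfsg.Agent.LyR Subgroup Function SemidirectProduct

universe u

variable {G : Type u} [Group G] [Fintype G]

theorem four_zero {χ : G → ℂ} (hχ : IsCharacter G χ) {a b : G} (ha : a * a = 1) (hb : b * b = 1) (hc : b * a = a * b)
    (h : χ 1 + χ a + χ b + χ (a * b) = 0) (g : G) : χ g + χ (a * g) + χ (b * g) + χ (a * b * g) = 0 := by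
  obtain ⟨n, ρ, rfl⟩ := hχ
  have e : IsIdempotentElem ((1 / 4 : ℂ) • (ρ 1 + ρ a + ρ b + ρ (a * b))) := by
    have e1 : ∀ x, a * (a * x) = x := fun x => by rw [← mul_assoc, ha, one_mul]
    have e2 : ∀ x, b * (a * x) = a * (b * x) := fun x => by rw [← mul_assoc, hc, mul_assoc]
    simp only [IsIdempotentElem, smul_mul_smul_comm, add_mul, mul_add, ← map_mul, one_mul, mul_one, mul_assoc, ha, hb,
      hc, e1, e2]
    module
  have z := LinearMap.IsIdempotentElem.eq_zero_of_trace_eq_zero e (by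
    simp only [map_smul, map_add]; exact smul_eq_zero_of_right _ h)
  have := congrArg (fun f => LinearMap.trace ℂ _ (f * ρ g)) ((smul_eq_zero_iff_right (by norm_num)).1 z)
  simpa only [add_mul, ← map_mul, one_mul, map_add, zero_mul, map_zero, Representation.character] using this

theorem card_cent_conj {a b : G} (h : IsConj a b) : Nat.card C1[b] = Nat.card C1[a] := by
  obtain ⟨g, rfl⟩ := isConj_iff.1 h
  rw [← conj_cent1, card_conj]

variable {φ : T0 →* G} {η : G} {π : C1[φ z0] →* M5} {h : C1[φ z0]}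

namespace BasA

theorem injp [IsSimpleGroup G] (H : BasA φ η π h) : Injective π := by
  classical
  obtain ⟨⟨χ, hχ, e1, e2⟩, -⟩ := H.col
  obtain ⟨n1, hχ⟩ := mem_B1.1 hχ
  have i := B0_irr hχ
  have inv : ∀ {a}, a * a = 1 → a ≠ 1 → χ a = -4 := fun ha h1 => by
    rw [← i.isClassFunction.eq_of_isConj (H.invol ha h1), e1]
  have sq : ∀ {s}, s * s = 1 → φ s * φ s = 1 := fun hs => by rw [← map_mul, hs, map_one]
  have fin : ∀ s, s * s = 1 → s ≠ 1 → s ≠ z0 → ∀ v : C1[φ z0], π v = 1 → χ (φ s * v) = -4 →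
      χ (φ z0 * φ s * v) = -4 → v = 1 := fun s hs s1 s2 v hv a b => by
    have c := four_zero i.isCharacter (t_sq φ) (sq hs) (mem_cent1.1 (phi_mem φ s)) (by
      have : ∀ s, s * s = 1 → s ≠ z0 → z0 * s * (z0 * s) = 1 ∧ z0 * s ≠ 1 := by decide +kernel
      rw [e1, e2, inv (sq hs) (H.ne s1), ← map_mul, inv (sq (this s hs s2).1) (H.ne (this s hs s2).2)]; norm_num) v
    rw [a, b, H.md.const (w' := 1) ((odd_map H.odd v).1 (by simp [hv])) (by simp [hv]) hχ, coe_one, mul_one, e1] at c
    by_contra n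
    exact (lt_degree i n1 (g := v) (fun e => n (Subtype.ext e)) (a := 12) (f := 12)
      (by push_cast; linear_combination c) (by simp [e2])).1.false
  have ce : ∀ s, s * s = 1 → s ≠ 1 → s ≠ z0 → C1[φ z0] = C1[φ s] := fun s hs s1 s2 => by
    refine eq_of_le_of_card_ge (fun c hc => ?_) (card_cent_conj (H.cjz hs s1)).le
    have cj := conj_invol (sq hs) c
    have := fin s hs s1 s2 (⟨_, phi_mem φ s⟩ * (⟨c, hc⟩ * ⟨_, phi_mem φ s⟩ * (⟨c, hc⟩ : C1[φ z0])⁻¹)) (by
      have : (inl s : M5) * inl s = 1 := by rw [← map_mul, hs, map_one]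
      rw [map_mul, map_mul, map_mul, map_inv, H.res, cen5 _ this, mul_inv_cancel_right, this]) ?_ ?_
    · have := congrArg Subtype.val this
      simp only [Subgroup.coe_mul, Subgroup.coe_inv, coe_one] at this
      rw [mem_cent1, ← mul_inv_eq_iff_eq_mul, ← mul_right_inj (φ s), this, sq hs]
    · simp only [Subgroup.coe_mul, Subgroup.coe_inv, ← mul_assoc (φ s), sq hs, one_mul]
      exact inv cj (by simpa using H.ne s1)
    · have m : c * φ s * c⁻¹ ∈ C1[φ z0] := mul_mem (mul_mem hc (phi_mem φ s)) (inv_mem hc)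
      simp only [Subgroup.coe_mul, Subgroup.coe_inv]
      rw [mul_assoc, ← mul_assoc (φ s), sq hs, one_mul]
      refine inv (by rw [mul_assoc, ← mul_assoc _ (φ z0), mem_cent1.1 m, mul_assoc (φ z0), cj, mul_one, t_sq]) fun e => ?_
      rw [mul_eq_one_iff_eq_inv', t_inv, mul_inv_eq_iff_eq_mul, ← mem_cent1.1 hc, mul_right_inj] at e
      exact s2 (H.inj e)
  refine (injective_iff_map_eq_one π).2 fun v hv => ?_
  have key : ∀ s, s * s = 1 → s ≠ 1 → s ≠ z0 → χ (φ s * v) = -4 := fun s hs s1 s2 => by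
    rw [← inv (sq hs) (H.ne s1)]
    refine B0_apply_mul_odd' (piNat_phi φ s) (π.ker.map C1[φ z0].subtype) ?_ ?_ ?_ hχ ⟨v, hv, rfl⟩
    · rintro _ ⟨o, -, rfl⟩; exact mem_cent1.1 (ce s hs s1 s2 ▸ o.2)
    · rintro c hc _ ⟨o, ho, rfl⟩
      exact ⟨_, π.normal_ker.conj_mem o ho ⟨c, ce s hs s1 s2 ▸ mem_cent1.2 hc⟩, rfl⟩
    · rw [card_map_of_injective (subtype_injective _)]; exact H.odd
  exact fin (kf z0) (by decide) (by decide) (by decide) v hv (key _ (by decide) (by decide) (by decide))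
    (by rw [← map_mul]; exact key _ (by decide) (by decide) (by decide))

theorem cC [IsSimpleGroup G] (H : BasA φ η π h) : Nat.card C1[φ z0] = 320 :=
  (Nat.card_congr (Equiv.ofBijective π ⟨H.injp, H.surj⟩)).trans card_M5

open Classical in
theorem cnt [IsSimpleGroup G] (H : BasA φ η π h) {s : T0} (hs : s * s = 1) (s1 : s ≠ 1) :
    ∑ g : G, (if g * φ z0 * g⁻¹ = φ s then (1 : ℂ) else 0) = 320 := by
  have := card_conj_eq_of_isConj (H.cjz hs s1)
  rw [H.cC] at this
  rw [← Equiv.sum_comp (Equiv.inv G)]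
  simp only [Equiv.inv_apply, inv_inv]
  rw [← natCard_subtype_eq_sum_ite, this]; simp

theorem cG [IsSimpleGroup G] (H : BasA φ η π h) : Nat.card G = 62400 := by
  classical
  have a := H.col.2
  have b : ∀ g, ∑ θ ∈ B0 G, θ (φ z0)⁻¹ * θ (g * φ z0 * g⁻¹ * φ z0) =
      320 * ((if g * φ z0 * g⁻¹ = φ (kf z0) then 1 else 0) + if g * φ z0 * g⁻¹ = φ (kf (kf z0)) then 1 else 0) := by
    intro g
    have c : ∀ s, z0 * s * (z0 * s) = 1 → z0 * s ≠ 1 → g * φ z0 * g⁻¹ = φ s →
        ∑ θ ∈ B0 G, θ (φ z0)⁻¹ * θ (g * φ z0 * g⁻¹ * φ z0) = 320 := fun s h1 h2 e => by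
      have := H.gram 0 0
      simp only [yy, Fin.val_zero, pow_zero, coe_one, mul_one, if_true] at this
      rw [← this, e, mem_cent1.1 (phi_mem φ s), ← map_mul]
      exact Finset.sum_congr rfl fun θ hθ => by rw [(B0_irr hθ).isClassFunction.eq_of_isConj (H.cjz h1 h2)]
    split_ifs with p q q
    · exact absurd (H.inj (p.symm.trans q)) (by decide)
    · rw [c _ (by decide) (by decide) p]; simp
    · rw [c _ (by decide) (by decide) q]; simp
    have := H.md.zero 1 (by simp) (y := g * φ z0 * g⁻¹ * φ z0) fun a w e e' => by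
      rw [H.injp e', coe_one, mul_one] at e
      have cj := conj_invol (t_sq φ) g
      have e1 : g * φ z0 * g⁻¹ * φ z0 * (g * φ z0 * g⁻¹ * φ z0) = 1 :=
        (MulAut.conj a).injective (by rw [map_mul, map_one, MulAut.conj_apply, e, t_sq])
      have m : g * φ z0 * g⁻¹ ∈ C1[φ z0] := mem_cent1.2 (by
        rw [eq_inv_of_mul_eq_one_left e1, mul_inv_rev, t_inv, inv_eq_of_mul_eq_one_right cj])
      obtain ⟨r1, r2⟩ := inv5 (π ⟨_, m⟩) (by rw [← map_mul, ← π.map_one]; exact congrArg π (Subtype.ext cj))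
      have r3 := congrArg Subtype.val (H.injp (r1.trans (H.res _).symm))
      generalize (π ⟨_, m⟩).left = s at r2 r3
      by_cases s1 : s = 1
      · exact H.ne (s := z0) (by decide) (by simpa [s1] using r3)
      rcases LyR.invol s r2 s1 with rfl | rfl | rfl
      · rw [show g * φ z0 * g⁻¹ = φ z0 from r3, t_sq] at e
        exact H.ne (s := z0) (by decide) (by simpa using e.symm)
      exacts [p r3, q r3]
    simpa using this
  rw [recip] at a
  simp only [b, ← Finset.mul_sum, Finset.sum_add_distrib, H.cnt (s := kf z0) (by decide) (by decide),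
    H.cnt (s := kf (kf z0)) (by decide) (by decide)] at a
  have := card_ne_zero_complex G
  field_simp at a
  exact_mod_cast (by linear_combination -a / 128 : (Nat.card G : ℂ) = 62400)

theorem cC' [IsSimpleGroup G] (H : BasA φ η π h) (t : G) (ht : orderOf t = 2) : Nat.card C1[t] = 320 :=
  (card_cent_conj (H.invol (mul_self_of_orderOf ht) (ne_one_of_orderOf_two ht))).trans H.cC

theorem cN [IsSimpleGroup G] (H : BasA φ η π h) : Nat.card N[φ.range] = 960 := by
  classical
  have a : C1[φ z0] ≤ N[φ.range] := fun c hc => mem_normalizer_fintype (by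
    rintro _ ⟨s, rfl⟩
    have : ∀ (m : M5) s, m * inl s * m⁻¹ = inl (m * inl s * m⁻¹).left := fun m s => by ext <;> simp
    have := this (π ⟨c, hc⟩) s
    rw [← H.res, ← H.res, ← map_inv, ← map_mul, ← map_mul] at this
    exact ⟨_, (congrArg Subtype.val (H.injp this)).symm⟩)
  have b : η ∈ N[φ.range] := mem_normalizer_fintype (by rintro _ ⟨s, rfl⟩; exact ⟨_, (H.eta s).symm⟩)
  have c : ∀ g, (if g ∈ N[φ.range] then (1 : ℂ) else 0) = (if g * φ z0 * g⁻¹ = φ z0 then 1 else 0) +
      (if g * φ z0 * g⁻¹ = φ (kf z0) then 1 else 0) + if g * φ z0 * g⁻¹ = φ (kf (kf z0)) then 1 else 0 := by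
    intro g
    have n : ∀ m : ℕ, g * φ z0 * g⁻¹ = φ (kf^[5 * m] z0) → g ∈ N[φ.range] := fun m e => by
      rw [← conj_it H.eta] at e
      rw [← mul_inv_cancel_left (η ^ m) g]
      refine mul_mem (pow_mem b m) (a (mem_cent1.2 ?_))
      calc _ = (η ^ m)⁻¹ * (g * φ z0 * g⁻¹) * g := by group
        _ = _ := by rw [e]; group
    by_cases hg : g ∈ N[φ.range]
    · obtain ⟨s, e⟩ := (mem_normalizer_iff.1 hg _).1 (φ.mem_range.2 ⟨z0, rfl⟩)
      have cj := conj_invol (t_sq φ) g
      rw [← e, ← map_mul, ← φ.map_one] at cj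
      have s1 : s ≠ 1 := by rintro rfl; exact H.ne (s := z0) (by decide) (by simpa using e.symm)
      simp only [if_pos hg, ← e, H.inj.eq_iff]
      rcases LyR.invol s (H.inj cj) s1 with rfl | rfl | rfl <;>
        simp [show z0 ≠ kf z0 by decide, show z0 ≠ kf (kf z0) by decide, show kf z0 ≠ kf (kf z0) by decide,
          show kf z0 ≠ z0 by decide, show kf (kf z0) ≠ z0 by decide, show kf (kf z0) ≠ kf z0 by decide]
    · rw [if_neg hg, if_neg fun e : _ = φ z0 => hg (n 0 e),
        if_neg fun e : _ = φ (kf z0) => hg (n 2 (e.trans (congrArg φ (by decide)))),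
        if_neg fun e : _ = φ (kf (kf z0)) => hg (n 1 (e.trans (congrArg φ (by decide))))]
      simp
  have d := natCard_subtype_eq_sum_ite (· ∈ N[φ.range]) ℂ
  simp only [c, Finset.sum_add_distrib, H.cnt (s := kf z0) (by decide) (by decide),
    H.cnt (s := kf (kf z0)) (by decide) (by decide), H.cnt (s := z0) (by decide) (by decide)] at d
  exact_mod_cast (by linear_combination d : (Nat.card N[φ.range] : ℂ) = 960)

end BasA

end Cfsg.Agent.LY
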