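import Cfsg.Agent.LY.Kill
import Cfsg.Agent.LyR.Loc
import Cfsg.Agent.LyR.Recog
import Cfsg.Agent.S0283

/-! # Simple groups with a Sylow 2-subgroup of type `U₃(4)` -/

set_option autoImplicit false

namespace Cfsg.Agent.LY

open Cfsg Cfsg.Agent.GT Cfsg.Agent.LyR Subgroup SemidirectProduct

universe u

theorem orders {G : Type u} [Group G] [Finite G] [IsSimpleGroup G] (S : Sylow 2 G) (e : T0 ≃* (S : Subgroup G)) :
    Nat.card G = 62400 ∧ (∀ t : G, orderOf t = 2 → Nat.card (centralizer ({t} : Set G)) = 320) ∧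
      Nat.card (normalizer (S : Set G)) = 960 := by
  have := Fintype.ofFinite G
  obtain ⟨φ, i, r, ⟨η, hη⟩, h⟩ := loc (fun _ _ _ φ hk hV h hh hN => e16 φ hk hV h hh hN) S e
  have s : IsPiHallOf {2} φ.range ⊤ := r ▸ syl_top_of_sylow Nat.prime_two S
  rcases h with ⟨π, o, a⟩ | ⟨h, π, su, o, a, b, c, d⟩
  · exact (caseB (π := π) ⟨i, s, hη, o, fun _ => a _ _, fun _ _ h => h, cent, fun m _ _ _ => ⟨m, rfl⟩⟩).elim
  · have H : BasA φ η π h := ⟨⟨i, s, hη, o, fun _ => a _ _, inl_injective, cen5,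
      fun m s p q => ⟨_, loc5 s p m q⟩⟩, su, b, c, d⟩
    exact ⟨H.cG, H.cC', by have := H.cN; rwa [r] at this⟩

theorem lyons {G : Type u} [Group G] [Finite G] [IsSimpleGroup G]
    {F : Type*} [Field F] [Fintype F] (hF : Fintype.card F = 16) (S : Sylow 2 G) (P : Sylow 2 (Cfsg.PSU 3 F 4))
    (hS : Nonempty ((S : Subgroup G) ≃* (P : Subgroup (Cfsg.PSU 3 F 4)))) : Nonempty (G ≃* Cfsg.PSU 3 F 4) := by
  obtain ⟨e⟩ := hS
  obtain ⟨f⟩ := equiv_P hF P
  have := S0283.result (q := 4) hF 3 le_rfl (by simp)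
  have : Finite (Cfsg.PSU 3 F 4) := by unfold Cfsg.PSU Cfsg.SU; infer_instance
  obtain ⟨a, b, c⟩ := orders S (f.trans e.symm)
  obtain ⟨a', b', c'⟩ := orders P f
  exact uniq hF P S P e (MulEquiv.refl _) a b c a' b' c'

end Cfsg.Agent.LY
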