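import Mathlib

/-! # Branch and bound certificates for generalized decomposition numbers and degrees -/

set_option autoImplicit false

namespace Cfsg.Agent.LY

/-- A row: weight, three columns, two further norms, residue and lower bounds of the signed degree. -/
structure Ty where
  (w a B c n R r P N : ℤ)
deriving DecidableEq

/-- A positive and a negative interval; a negative upper bound means no upper bound. -/
structure Dom where
  (pl ph nl nh : ℤ)

def Iv (lo hi g : ℤ) : Prop := lo ≤ g ∧ (hi < 0 ∨ g ≤ hi)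

def Dom.mem (d : Dom) (g : ℤ) : Prop := Iv d.pl d.ph g ∨ Iv d.nl d.nh (-g)

def val (α β g : ℤ) : ℤ := α * g + β / g

theorem val_le {α β g k : ℤ} (hk : 0 < k) (hg : 0 < g) (h : 0 ≤ (g - k) * (α * g * k - β)) :
    (val α β k : ℚ) ≤ α * g + β / g := by
  have a : (0 : ℚ) < k := by exact_mod_cast hk
  have b : (0 : ℚ) < g := by exact_mod_cast hg
  have c : ((β / k : ℤ) : ℚ) ≤ β / k := by
    rw [le_div_iff₀ a]; exact_mod_cast Int.ediv_mul_le β hk.ne'
  have e : (0 : ℚ) ≤ (g - k) * (α * g * k - β) := by exact_mod_cast h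
  have : (α : ℚ) * g + β / g - (α * k + β / k) = (g - k) * (α * g * k - β) / (g * k) := by field_simp; ring
  have := div_nonneg e (mul_pos b a).le
  rw [val]; push_cast; linarith

def isq : ℕ → ℕ → ℕ → ℕ
  | 0, _, x => x
  | f + 1, n, x => if (x + n / x) / 2 < x then isq f n ((x + n / x) / 2) else x

def cvx (α β k : ℤ) : Option ℤ :=
  if 0 < k ∧ α * k * k ≤ β ∧ β ≤ α * (k + 64) * (k + 64) then some (min (val α β k) (val α β (k + 64))) else none

def lb (r α β lo hi : ℤ) : Option ℤ :=
  if lo ≤ 0 then none else if 0 ≤ α ∧ β ≤ α * lo * lo then some (val α β lo)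
  else if hi < 0 ∧ α = 0 then some 0
  else if 0 < α ∧ (hi < 0 ∨ β < α * hi * hi) then
    cvx α β (isq 200 (β / α).toNat (β / α).toNat - (isq 200 (β / α).toNat (β / α).toNat - r) % 64)
  else if hi < 0 then none else if 0 ≤ β then some (val α β hi) else some (min (val α β lo) (val α β hi))

theorem lb_le {r α β lo hi g t : ℤ} (h : lb r α β lo hi = some t) (hg : Iv lo hi g) (hr : 64 ∣ g - r) :
    (t : ℚ) ≤ α * g + β / g := by
  obtain ⟨h1, h2⟩ := hg
  unfold lb at h
  split_ifs at h with a b c d e f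
  · obtain rfl := Option.some.inj h
    exact val_le (by omega) (by omega) (mul_nonneg (by omega) (by nlinarith [mul_nonneg b.1 (show 0 ≤ lo by omega)]))
  · obtain rfl := Option.some.inj h
    have : (0 : ℚ) ≤ β := by have : 0 ≤ β := by simp [c.2] at b; omega
                             exact_mod_cast this
    have : (0 : ℚ) ≤ g := by exact_mod_cast (show 0 ≤ g by omega)
    simp only [c.2, Int.cast_zero, zero_mul, zero_add]; positivity
  · generalize (isq 200 (β / α).toNat (β / α).toNat : ℤ) = s at h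
    unfold cvx at h
    have hk : 64 ∣ g - (s - (s - r) % 64) := by omega
    generalize s - (s - r) % 64 = k at h hk
    split_ifs at h with i
    obtain rfl := Option.some.inj h
    obtain ⟨i, j, l⟩ := i
    rw [Int.cast_min]
    rcases le_or_gt g k with m | m
    · refine (min_le_left _ _).trans (val_le i (by omega) (mul_nonneg_of_nonpos_of_nonpos (by omega) ?_))
      nlinarith [mul_nonneg d.1.le i.le]
    · refine (min_le_right _ _).trans (val_le (by omega) (by omega) (mul_nonneg (by omega) ?_))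
      nlinarith [mul_nonneg d.1.le (show 0 ≤ k + 64 by omega), show k + 64 ≤ g by omega]
  · obtain rfl := Option.some.inj h
    have h3 : g ≤ hi := by omega
    refine val_le (by omega) (by omega) (mul_nonneg_of_nonpos_of_nonpos (by omega) ?_)
    rcases le_or_gt α 0 with m | m
    · nlinarith [mul_nonneg (show 0 ≤ g by omega) (show 0 ≤ hi by omega)]
    · have : α * hi * hi ≤ β := by by_contra n; exact d ⟨m, .inr (by omega)⟩
      nlinarith [mul_nonneg m.le (show 0 ≤ hi by omega)]
  · obtain rfl := Option.some.inj h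
    have h3 : g ≤ hi := by omega
    have m : α < 0 := by
      by_contra n
      exact b ⟨by omega, by nlinarith [mul_nonneg (show 0 ≤ α by omega) (mul_self_nonneg lo)]⟩
    rw [Int.cast_min]
    rcases le_or_gt β (α * g * lo) with i | i
    · exact (min_le_left _ _).trans (val_le (by omega) (by omega) (mul_nonneg (by omega) (by omega)))
    · refine (min_le_right _ _).trans (val_le (by omega) (by omega) (mul_nonneg_of_nonpos_of_nonpos (by omega) ?_))
      nlinarith [mul_nonneg (show 0 ≤ -α by omega) (show 0 ≤ g by omega)]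

def emp (lo hi : ℤ) : Bool := decide (0 ≤ hi ∧ hi < lo)

theorem Iv.not_emp {lo hi g : ℤ} (h : Iv lo hi g) (e : emp lo hi = true) : False := by
  simp only [emp, Iv, decide_eq_true_eq] at *; omega

def lbV (r α β : ℤ) (d : Dom) : Option ℤ :=
  if emp d.pl d.ph then lb (-r) (-α) (-β) d.nl d.nh else if emp d.nl d.nh then lb r α β d.pl d.ph
  else (lb r α β d.pl d.ph).bind fun x => (lb (-r) (-α) (-β) d.nl d.nh).map (min x)

theorem lbV_le {r α β g t : ℤ} {d : Dom} (h : lbV r α β d = some t) (hg : d.mem g) (hr : 64 ∣ g - r) :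
    (t : ℚ) ≤ α * g + β / g := by
  have n : ∀ {t}, lb (-r) (-α) (-β) d.nl d.nh = some t → Iv d.nl d.nh (-g) → (t : ℚ) ≤ α * g + β / g := fun h i => by
    simpa [neg_div_neg_eq] using lb_le h i (by omega)
  unfold lbV at h
  split_ifs at h with a b
  · exact n h (hg.resolve_left fun i => i.not_emp a)
  · exact lb_le h (hg.resolve_right fun i => i.not_emp b) hr
  · simp only [Option.bind_eq_some_iff, Option.map_eq_some_iff] at h
    obtain ⟨x, i, y, j, rfl⟩ := h
    rw [Int.cast_min]
    exact hg.elim (fun k => (min_le_left _ _).trans (lb_le i k hr)) fun k => (min_le_right _ _).trans (n j k)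

def Ty.al (t : Ty) (x y z : ℤ) : ℤ := t.w * (x * t.a + y * t.B + z * t.c)
def Ty.be (t : Ty) (p q : ℤ) : ℤ := t.w * t.a * t.a * (p * t.c + q * t.B)
def phi (x y z p q : ℤ) (e : Ty × ℤ) : ℚ := e.1.al x y z * e.2 + e.1.be p q / e.2

def Mem (e : Ty × ℤ) (d : Dom) : Prop := 64 ∣ e.2 - e.1.r ∧ d.mem e.2

def chkL (x y z p q : ℤ) : ℤ → List Ty → List Dom → Bool
  | s, t :: ts, d :: ds => match lbV t.r (t.al x y z) (t.be p q) d with
    | none => false
    | some u => chkL x y z p q (s + u) ts ds
  | s, _, _ => decide (0 < s)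

theorem chkL_ok {x y z p q : ℤ} {l : List (Ty × ℤ)} {ds : List Dom} (h : List.Forall₂ Mem l ds) {s : ℤ}
    (k : chkL x y z p q s (l.map Prod.fst) ds = true) : 0 < (s : ℚ) + (l.map (phi x y z p q)).sum := by
  induction h generalizing s with
  | nil => simpa [chkL] using k
  | cons a _ ih =>
    simp only [List.map_cons, chkL] at k
    split at k
    · exact absurd k (by simp)
    · have := ih k
      have := lbV_le ‹_› a.2 a.1
      simp only [List.map_cons, List.sum_cons, phi] at *
      push_cast at *; linarith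

def Dom.fix (d : Dom) : Option ℤ :=
  if d.pl = d.ph ∧ 0 ≤ d.ph ∧ emp d.nl d.nh then some d.pl
  else if d.nl = d.nh ∧ 0 ≤ d.nh ∧ emp d.pl d.ph then some (-d.nl) else none

theorem Dom.fix_eq {d : Dom} {g v : ℤ} (h : d.fix = some v) (hg : d.mem g) : g = v := by
  unfold fix at h
  split_ifs at h with a b <;> obtain rfl := Option.some.inj h
  · have := hg.resolve_right fun i => i.not_emp a.2.2
    unfold Iv at this; omega
  · have := hg.resolve_left fun i => i.not_emp b.2.2
    unfold Iv at this; omega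

def chkM (x y z m : ℤ) : ℤ → List Ty → List Dom → Bool
  | s, t :: ts, d :: ds => match d.fix with
    | none => decide (64 * t.al x y z % m = 0) && chkM x y z m (s + t.al x y z * t.r) ts ds
    | some v => chkM x y z m (s + t.al x y z * v) ts ds
  | s, _, _ => decide (s % m ≠ 0)

theorem chkM_ok {x y z m : ℤ} {l : List (Ty × ℤ)} {ds : List Dom} (h : List.Forall₂ Mem l ds) {s : ℤ}
    (k : chkM x y z m s (l.map Prod.fst) ds = true) : ¬m ∣ s + (l.map fun e => e.1.al x y z * e.2).sum := by
  induction h generalizing s with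
  | nil => exact fun n => of_decide_eq_true k (Int.emod_eq_zero_of_dvd (by simpa using n))
  | @cons e d _ _ a _ ih =>
    simp only [List.map_cons, chkM] at k
    rw [List.map_cons, List.sum_cons]
    split at k
    · rw [Bool.and_eq_true, decide_eq_true_eq] at k
      obtain ⟨j, i⟩ := a.1
      refine fun n => ih k.2 ?_
      have := dvd_sub n ((Int.dvd_of_emod_eq_zero k.1).mul_right j)
      rwa [show e.2 = e.1.r + 64 * j by omega, show ∀ u, s + (e.1.al x y z * (e.1.r + 64 * j) + u) -
        64 * e.1.al x y z * j = s + e.1.al x y z * e.1.r + u from fun _ => by ring] at this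
    · rw [Dom.fix_eq ‹_› a.2, ← add_assoc]; exact ih k

def Ty.cs (t : Ty) : ℤ := t.w * t.a * t.a * (t.a - 5 * t.c)
def Twelve (l : List (Ty × ℤ)) : Prop := ∃ e ∈ l, e.1.a = 4 ∧ e.2 = -12

def chkD : ℚ → Bool → List Ty → List Dom → Bool
  | s, b, t :: ts, d :: ds => match d.fix with
    | none => decide (t.cs = 0) && chkD s b ts ds
    | some v => chkD (s + t.cs / v) (b || decide (t.a = 4 ∧ v = -12)) ts ds
  | s, b, _, _ => b && decide (s = 284 / 39)

theorem chkD_ok {l : List (Ty × ℤ)} {ds : List Dom} (h : List.Forall₂ Mem l ds) {s : ℚ} {b : Bool}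
    (k : chkD s b (l.map Prod.fst) ds = true) :
    (b = true ∨ Twelve l) ∧ s + (l.map fun e => (e.1.cs / e.2 : ℚ)).sum = 284 / 39 := by
  induction h generalizing s b with
  | nil => simpa [chkD, Twelve] using k
  | @cons e d _ _ a _ ih =>
    simp only [List.map_cons, chkD] at k
    rw [List.map_cons, List.sum_cons]
    split at k
    · rw [Bool.and_eq_true, decide_eq_true_eq] at k
      exact ⟨(ih k.2).1.imp_right fun ⟨x, i, j⟩ => ⟨x, .tail _ i, j⟩, by simpa [k.1] using (ih k.2).2⟩
    · obtain rfl := Dom.fix_eq ‹_› a.2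
      refine ⟨?_, by rw [← add_assoc]; exact (ih k).2⟩
      rcases (ih k).1 with i | ⟨x, i, j⟩
      · rw [Bool.or_eq_true, decide_eq_true_eq] at i
        exact i.imp_right fun i => ⟨e, .head _, i⟩
      · exact .inr ⟨x, .tail _ i, j⟩

def cut (hi a : ℤ) : ℤ := if a < 0 then hi else if hi < 0 then a else min hi a
def Dom.ins (a b : ℤ) (d : Dom) : Dom := ⟨d.pl, cut d.ph a, d.nl, cut d.nh b⟩
def up (r lo a : ℤ) : ℤ := if a < lo then lo else a + 1 + (r - a - 1) % 64
def Dom.out (r a b : ℤ) (d : Dom) : Dom :=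
  ⟨up r d.pl a, if a < 0 then 0 else d.ph, up (-r) d.nl b, if b < 0 then 0 else d.nh⟩

theorem Iv.split {lo hi g r : ℤ} (h : Iv lo hi g) (hr : 64 ∣ g - r) (a : ℤ) :
    Iv lo (cut hi a) g ∨ Iv (up r lo a) (if a < 0 then 0 else hi) g := by
  unfold Iv cut up at *
  split_ifs <;> omega

def upd (f : Ty → Dom → Dom) : ℕ → List Ty → List Dom → List Dom
  | 0, t :: _, d :: ds => f t d :: ds
  | i + 1, _ :: ts, d :: ds => d :: upd f i ts ds
  | _, _, ds => ds

theorem upd_ok {l : List (Ty × ℤ)} {ds : List Dom} (h : List.Forall₂ Mem l ds) (i : ℕ) (a b : ℤ) :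
    List.Forall₂ Mem l (upd (fun _ => Dom.ins a b) i (l.map Prod.fst) ds) ∨
      List.Forall₂ Mem l (upd (fun t => Dom.out t.r a b) i (l.map Prod.fst) ds) := by
  induction h generalizing i with
  | nil => left; cases i <;> exact .nil
  | @cons e d _ _ m n ih =>
    cases i with
    | zero =>
      have : Mem e (d.ins a b) ∨ Mem e (d.out e.1.r a b) := by
        rcases m.2 with j | j
        · exact (j.split m.1 a).imp (fun k => ⟨m.1, .inl k⟩) fun k => ⟨m.1, .inl k⟩
        · exact (j.split (r := -e.1.r) (by have := m.1; omega) b).imp (fun k => ⟨m.1, .inr k⟩) fun k => ⟨m.1, .inr k⟩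
      exact this.imp (fun k => .cons k n) fun k => .cons k n
    | succ i => exact (ih i).imp (fun k => .cons m k) fun k => .cons m k

inductive Tr
  | L (x y z p q : ℤ)
  | M (x y z m : ℤ)
  | D
  | S (i : ℕ) (a b : ℤ) (l r : Tr)

/-- `K` is the contribution of the trivial character. -/
def p2 (K : Ty) (ts : List Ty) : Tr → List Dom → Bool
  | .L x y z p q, ds => chkL x y z p q (K.al x y z + K.be p q) ts ds
  | .M x y z m, ds => chkM x y z m (K.al x y z) ts ds
  | .D, ds => chkD 0 false ts ds
  | .S i a b l r, ds => p2 K ts l (upd (fun _ => Dom.ins a b) i ts ds) && p2 K ts r (upd (fun t => Dom.out t.r a b) i ts ds)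

def Eqs (K : Ty) (l : List (Ty × ℤ)) : Prop := ∀ x y z p q, phi x y z p q (K, 1) + (l.map (phi x y z p q)).sum = 0

def Con (l : List (Ty × ℤ)) : Prop := Twelve l ∧ (l.map fun e => (e.1.cs / e.2 : ℚ)).sum = 284 / 39

theorem p2_ok {K : Ty} {l : List (Ty × ℤ)} (E : Eqs K l) (T : Tr) {ds : List Dom} (h : List.Forall₂ Mem l ds)
    (k : p2 K (l.map Prod.fst) T ds = true) : Con l := by
  induction T generalizing ds with
  | L x y z p q =>
    have a := chkL_ok h k
    have b := E x y z p q
    simp only [phi] at a b ⊢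
    push_cast at a b; linarith
  | M x y z m =>
    have b := E x y z 0 0
    have c : ∀ l : List (Ty × ℤ), (l.map (phi x y z 0 0)).sum = (l.map fun e => e.1.al x y z * e.2).sum := fun l => by
      induction l with
      | nil => simp
      | cons e l ih => simp [ih, phi, Ty.be]
    rw [c] at b
    refine (chkM_ok h k ?_).elim
    have : K.al x y z + (l.map fun e => e.1.al x y z * e.2).sum = 0 := by
      simp only [phi, Ty.be] at b
      exact_mod_cast (by simpa using b : (K.al x y z : ℚ) + ((l.map fun e => e.1.al x y z * e.2).sum : ℤ) = 0)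
    rw [this]; exact dvd_zero _
  | D => simpa [Con] using chkD_ok h k
  | S i a b l r ih1 ih2 =>
    simp only [p2, Bool.and_eq_true] at k
    exact (upd_ok h i a b).elim (fun j => ih1 j k.1) fun j => ih2 j k.2

def Ty.dom (t : Ty) : Dom := ⟨t.P, -1, t.N, -1⟩

def Ok (K : Ty) (l : List (Ty × ℤ)) : Prop := Eqs K l → (∀ e ∈ l, Mem e e.1.dom) → Con l

theorem ok_of {K : Ty} {ts : List Ty} (T : Tr) (k : p2 K ts T (ts.map Ty.dom) = true) (l : List (Ty × ℤ))
    (h : l.map Prod.fst = ts) : Ok K l := fun E m => by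
  subst h
  refine p2_ok E T ?_ k
  rw [List.map_map, List.forall₂_map_right_iff, List.forall₂_same]
  exact m

theorem Ok.perm {K : Ty} {l l' : List (Ty × ℤ)} (h : Ok K l) (p : l.Perm l') : Ok K l' := fun E m => by
  obtain ⟨⟨e, i, j⟩, b⟩ := h (fun x y z u v => by rw [(p.map _).sum_eq]; exact E x y z u v) fun e i => m e (p.mem_iff.1 i)
  exact ⟨⟨e, p.mem_iff.1 i, j⟩, by rw [← (p.map _).sum_eq]; exact b⟩

def sm (φ : Ty → ℤ) (l : List (Ty × ℤ)) : ℤ := (l.map fun e => φ e.1).sum

/-- The Gram data of a list of rows. -/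
structure St where
  (a B c aB ac Bc n R : ℤ)
deriving DecidableEq

def St.of (l : List (Ty × ℤ)) : St :=
  ⟨sm (fun t => t.w * (t.a * t.a)) l, sm (fun t => t.w * (t.B * t.B)) l, sm (fun t => t.w * (t.c * t.c)) l,
    sm (fun t => t.w * (t.a * t.B)) l, sm (fun t => t.w * (t.a * t.c)) l, sm (fun t => t.w * (t.B * t.c)) l,
    sm (fun t => t.w * t.n) l, sm (fun t => t.w * t.R) l⟩

def St.sub (s : St) (t : Ty) : St :=
  ⟨s.a - t.w * (t.a * t.a), s.B - t.w * (t.B * t.B), s.c - t.w * (t.c * t.c), s.aB - t.w * (t.a * t.B),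
    s.ac - t.w * (t.a * t.c), s.Bc - t.w * (t.B * t.c), s.n - t.w * t.n, s.R - t.w * t.R⟩

def St.neg (s : St) : Bool := decide (s.a < 0 ∨ s.B < 0 ∨ s.c < 0 ∨ s.n < 0 ∨ s.R < 0)

def St.pr (s : St) (ts : List Ty) : Bool :=
  (decide (s.n ≠ 0) && ts.all fun t => decide (t.n = 0)) || (decide (s.R ≠ 0) && ts.all fun t => decide (t.R = 0)) ||
    (decide (s.c ≠ 0) && ts.all fun t => decide (t.c = 0)) || (decide (s.B ≠ 0) && ts.all fun t => decide (t.B = 0))

def p1 (C : List (List Ty)) : ℕ → List Ty → St → List Ty → Bool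
  | 0, _, _, _ => false
  | _, [], s, acc => decide (s ≠ ⟨0, 0, 0, 0, 0, 0, 0, 0⟩) || decide (acc ∈ C)
  | f + 1, t :: ts, s, acc =>
    s.pr (t :: ts) || (p1 C f ts s acc && ((s.sub t).neg || p1 C f (t :: ts) (s.sub t) (t :: acc)))

theorem sm_zero {φ : Ty → ℤ} {l : List (Ty × ℤ)} (h : ∀ e ∈ l, φ e.1 = 0) : sm φ l = 0 :=
  List.sum_eq_zero (List.forall_mem_map.2 h)

theorem sm_nonneg {φ : Ty → ℤ} {l : List (Ty × ℤ)} (h : ∀ e ∈ l, 0 ≤ φ e.1) : 0 ≤ sm φ l :=
  List.sum_nonneg (List.forall_mem_map.2 h)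

theorem p1_ok {Q : List (Ty × ℤ) → Prop} (hQ : ∀ {l l'}, Q l → l.Perm l' → Q l') {C : List (List Ty)}
    (hC : ∀ l : List (Ty × ℤ), l.map Prod.fst ∈ C → Q l) (f : ℕ) :
    ∀ (ts : List Ty) (l la : List (Ty × ℤ)), (∀ t ∈ ts, 0 ≤ t.w ∧ 0 ≤ t.n ∧ 0 ≤ t.R) → (∀ e ∈ l, e.1 ∈ ts) →
      p1 C f ts (St.of l) (la.map Prod.fst) = true → Q (la ++ l) := by
  induction f with
  | zero => intro ts l la _ _ k; simp [p1] at k
  | succ f ih =>
    intro ts l la h0 h k
    cases ts with
    | nil =>
      obtain rfl : l = [] := List.eq_nil_iff_forall_not_mem.2 fun e i => by simpa using h e i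
      simp only [p1, St.of, sm, List.map_nil, List.sum_nil, ne_eq, not_true, decide_false, Bool.false_or,
        decide_eq_true_eq] at k
      simpa using hC la k
    | cons t ts =>
      simp only [p1, Bool.or_eq_true, Bool.and_eq_true] at k
      rcases k with k | ⟨k, j⟩
      · simp only [St.pr, Bool.or_eq_true, Bool.and_eq_true, decide_eq_true_eq, List.all_eq_true] at k
        rcases k with ((k | k) | k) | k <;> refine (k.1 ?_).elim <;> dsimp only [St.of] <;>
          exact sm_zero fun e i => by simp [k.2 _ (h e i)]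
      by_cases m : ∃ e ∈ l, e.1 = t
      · obtain ⟨e, i, rfl⟩ := m
        have p := List.perm_cons_erase i
        have q : (St.of l).sub e.1 = St.of (l.erase e) := by
          have : ∀ φ, sm φ l = φ e.1 + sm φ (l.erase e) := fun φ => by
            rw [sm, (p.map _).sum_eq]; rfl
          simp [St.of, St.sub, this]
        have n := fun x (i : x ∈ l.erase e) => h x (List.mem_of_mem_erase i)
        rw [q] at j
        rcases j with j | j
        · rcases of_decide_eq_true j with j | j | j | j | j <;> dsimp only [St.of] at j <;>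
            refine absurd j (not_lt.2 (sm_nonneg fun x i => ?_))
          exacts [mul_nonneg (h0 _ (n x i)).1 (mul_self_nonneg _), mul_nonneg (h0 _ (n x i)).1 (mul_self_nonneg _),
            mul_nonneg (h0 _ (n x i)).1 (mul_self_nonneg _), mul_nonneg (h0 _ (n x i)).1 (h0 _ (n x i)).2.1,
            mul_nonneg (h0 _ (n x i)).1 (h0 _ (n x i)).2.2]
        · exact hQ (ih _ _ (e :: la) h0 n j) (List.perm_middle.symm.trans (p.symm.append_left la))
      · exact ih ts l la (fun x i => h0 x (.tail _ i))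
          (fun e i => (List.mem_cons.1 (h e i)).resolve_left fun j => m ⟨e, i, j⟩) k

end Cfsg.Agent.LY
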